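import Mathlib

/-!
# Modules over Clifford algebras and quadratic elements of order 3
-/

set_option autoImplicit false

namespace Cfsg.Agent.Chev.AS

open Module Function

universe u v

section Ring

variable {R : Type*} [Ring R] {a b c e z : R}

theorem quad_inv (ha : a * a + a + 1 = 0) (hb : b * b + b + 1 = 0) :
    a * b * ((1 + b) * (1 + a)) = 1 := by
  have : a * b * ((1 + b) * (1 + a)) = a * (b * b + b + 1) * (1 + a) - (a * a + a + 1) + 1 := by
    noncomm_ring
  rw [this, ha, hb]
  simp

theorem quad_lin (ha : a * a + a + 1 = 0) (hb : b * b + b + 1 = 0) (h1 : Commute e a)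
    (h : e * (a * b) ^ 2 = e) : 2 * (e * (a + b + 1)) = 0 := by
  have k1 : e * (a * b) = e * ((1 + b) * (1 + a)) := by
    conv_rhs => rw [← h, sq, mul_assoc, mul_assoc, quad_inv ha hb, mul_one]
  have k2 : e * (b * a) ^ 2 = e := by
    have k3 : a * (e * (b * a) ^ 2 - e) = 0 := by
      rw [mul_sub, ← mul_assoc, ← h1.eq, show e * a * (b * a) ^ 2 = e * (a * b) ^ 2 * a by noncomm_ring,
        h, sub_self]
    have : e * (b * a) ^ 2 - e = (a * a + a + 1) * (e * (b * a) ^ 2 - e) -
      (1 + a) * (a * (e * (b * a) ^ 2 - e)) := by noncomm_ring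
    rwa [ha, k3, zero_mul, mul_zero, sub_zero, sub_eq_zero] at this
  have k4 : e * (b * a) = e * ((1 + a) * (1 + b)) := by
    conv_rhs => rw [← k2, sq, mul_assoc, mul_assoc, quad_inv hb ha, mul_one]
  have : 2 * (e * (a + b + 1)) = (e * ((1 + b) * (1 + a)) - e * (a * b)) +
    (e * ((1 + a) * (1 + b)) - e * (b * a)) := by noncomm_ring
  rw [this, k1, k4]
  simp

theorem quad_rel (ha : a * a + a + 1 = 0) (hb : b * b + b + 1 = 0) (h : (a * b) ^ 2 = -1) :
    a * b + b * a + a + b + 1 = 0 := by
  have k1 : a * b = (a * b) ^ 2 * ((1 + b) * (1 + a)) := by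
    rw [sq, mul_assoc _ (a * b), quad_inv ha hb, mul_one]
  rw [h] at k1
  rw [k1]
  noncomm_ring

variable (h6 : ∀ x : R, 6 * x = 0 → x = 0) (ha : a * a + a + 1 = 0) (hb : b * b + b + 1 = 0)
  (hc : c * c + c + 1 = 0) (hz : z * z = 1) (h1 : Commute z a) (h2 : Commute z b)
  (hab : (a * b) ^ 2 = 1 ∨ (a * b) ^ 2 = z) (hac : (a * c) ^ 2 = 1 ∨ (a * c) ^ 2 = z)
  (hbc : (b * c) ^ 2 = 1 ∨ (b * c) ^ 2 = z)
include h6 ha hb hc hz h1 h2 hab hac hbc

theorem quad_neg : z = -1 := by
  have k : ∀ {x : R}, x = 1 ∨ x = z → (1 + z) * x = 1 + z := by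
    rintro _ (rfl | rfl)
    · exact mul_one _
    · rw [add_mul, hz, one_mul, add_comm]
  have k1 := quad_lin ha hb ((Commute.one_left a).add_left h1) (k hab)
  have k2 := quad_lin ha hc ((Commute.one_left a).add_left h1) (k hac)
  have k3 := quad_lin hb hc ((Commute.one_left b).add_left h2) (k hbc)
  have : 6 * (1 + z) = 8 * ((1 + z) * (a * a + a + 1)) - (2 * ((1 + z) * (a + b + 1)) +
    2 * ((1 + z) * (a + c + 1)) - 2 * ((1 + z) * (b + c + 1))) * (2 * a + 1) := by noncomm_ring
  rw [k1, k2, k3, ha] at this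
  exact (neg_eq_of_add_eq_zero_right (h6 _ (by simpa using this))).symm

theorem quad_rel' : a * b + b * a + a + b + 1 = 0 := by
  obtain rfl := quad_neg h6 ha hb hc hz h1 h2 hab hac hbc
  have k : ∀ {a b : R}, a * a + a + 1 = 0 → b * b + b + 1 = 0 → (a * b) ^ 2 = 1 ∨ (a * b) ^ 2 = -1 →
      a + b + 1 = 0 ∨ a * b + b * a + a + b + 1 = 0 := fun {a b} ha hb h =>
    h.imp (fun h => h6 _ (by
      have := quad_lin ha hb (Commute.one_left _) ((one_mul _).trans h)
      rw [show (6 : R) = 3 * 2 by norm_num, mul_assoc, ← one_mul (a + b + 1), this, mul_zero]))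
      (quad_rel ha hb)
  refine (k ha hb hab).elim (fun k1 => ?_) id
  suffices (1 : R) = 0 by rw [← one_mul (_ + 1), this, zero_mul]
  obtain rfl : b = -1 - a := by rw [← sub_eq_zero, ← k1]; noncomm_ring
  rcases k ha hc hac with k2 | k2 <;> rcases k hb hc hbc with k3 | k3
  · refine h6 _ ?_
    have : (6 : R) * 1 = 8 * (a * a + a + 1) -
      2 * ((a + c + 1) - (-1 - a + c + 1)) * (2 * a + 1) := by noncomm_ring
    rw [this, k2, k3, ha]
    simp
  · obtain rfl : c = -1 - a := by rw [← sub_eq_zero, ← k2]; noncomm_ring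
    have : (1 : R) = 2 * ((-1 - a) * (-1 - a) + (-1 - a) + 1) - ((-1 - a) * (-1 - a) +
      (-1 - a) * (-1 - a) + (-1 - a) + (-1 - a) + 1) := by noncomm_ring
    rw [hb, k3] at this
    simpa using this
  · obtain rfl : c = a := by rw [← sub_eq_zero, ← k3]; noncomm_ring
    have : (1 : R) = 2 * (c * c + c + 1) - (c * c + c * c + c + c + 1) := by noncomm_ring
    rw [ha, k2] at this
    simpa using this
  · have : (1 : R) = (a * c + c * a + a + c + 1) +
      ((-1 - a) * c + c * (-1 - a) + (-1 - a) + c + 1) := by noncomm_ring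
    rw [k2, k3] at this
    simpa using this

end Ring

variable {k : Type*} [Field k]

theorem halve {W : Type*} [AddCommGroup W] [Module k W] [FiniteDimensional k W] {x y : End k W}
    (h1 : x * x = 0) (h2 : x * y + y * x = 1) : finrank k W = 2 * finrank k x.ker := by
  have h3 : x.range = x.ker := by
    refine le_antisymm ?_ fun w hw => ⟨y w, ?_⟩
    · rintro _ ⟨w, rfl⟩
      exact LinearMap.congr_fun h1 w
    · simpa [LinearMap.mem_ker.1 hw] using LinearMap.congr_fun h2 w
  rw [← x.finrank_range_add_finrank_ker, h3, two_mul]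

theorem clif [IsAlgClosed k] (m : ℕ) : ∀ (M : Type u) [AddCommGroup M] [Module k M]
    [FiniteDimensional k M] (W : Type v) [AddCommGroup W] [Module k W] [FiniteDimensional k W]
    (L : M →ₗ[k] End k W) (B : M →ₗ[k] M →ₗ[k] k), (∀ a, ∃ c : k, L a * L a = c • 1) →
    (∀ a b, L a * L b + L b * L a = B a b • 1) → (∀ a, (∀ b, B a b = 0) → a = 0) →
    2 * m ≤ finrank k M → 2 ^ m ∣ finrank k W := by
  induction m with
  | zero => intros; simp
  | succ m ih =>
    intro M _ _ _ W _ _ _ L B h1 h2 h3 h4
    rcases subsingleton_or_nontrivial W with _ | _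
    · simp [finrank_zero_of_subsingleton]
    have hs : ∀ a b, B a b = B b a := fun a b =>
      smul_left_injective k one_ne_zero ((h2 a b).symm.trans ((add_comm _ _).trans (h2 b a)))
    obtain ⟨x, hx, x0⟩ : ∃ x, L x * L x = 0 ∧ x ≠ 0 := by
      have : Nontrivial M := Module.nontrivial_of_finrank_pos (R := k) (by omega)
      obtain ⟨u, hu⟩ := exists_ne (0 : M)
      obtain ⟨v, hv⟩ := exists_linearIndependent_pair_of_one_lt_finrank (R := k) (by omega) hu
      obtain ⟨α, hα⟩ := h1 u
      obtain ⟨β, hβ⟩ := h1 v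
      by_cases h0 : α = 0
      · exact ⟨u, by simpa [h0] using hα, hu⟩
      obtain ⟨t, ht⟩ := IsAlgClosed.exists_root (.C α * .X ^ 2 + .C (B u v) * .X + .C β : Polynomial k)
        (by rw [Polynomial.degree_quadratic h0]; decide)
      refine ⟨t • u + v, ?_, fun e =>
        one_ne_zero (LinearIndependent.pair_iff.1 hv t 1 (by simpa using e)).2⟩
      have : α * t ^ 2 + B u v * t + β = 0 := by simpa using ht
      simp only [map_add, map_smul, add_mul, mul_add, smul_mul_assoc, mul_smul_comm, hα, hβ,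
        eq_sub_of_add_eq (h2 u v)]
      linear_combination (norm := module) this • (1 : End k W)
    obtain ⟨y, hy⟩ : ∃ y, B x y = 1 := by
      obtain ⟨y, hy⟩ := not_forall.1 (mt (h3 x) x0)
      exact ⟨(B x y)⁻¹ • y, by simp [hy]⟩
    have hxx : B x x = 0 := smul_left_injective k one_ne_zero
      ((h2 x x).symm.trans (by simp [hx]) : B x x • (1 : End k W) = (0 : k) • 1)
    let M' := (B x).ker ⊓ (B y).ker
    have hM : ∀ a : M', ∀ w ∈ (L x).ker, L a w ∈ (L x).ker := fun a w hw => by
      simpa [LinearMap.mem_ker.1 hw, LinearMap.mem_ker.1 a.2.1] using LinearMap.congr_fun (h2 x a) w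
    let L' : M' →ₗ[k] End k (L x).ker :=
      { toFun := fun a => (L a).restrict (hM a)
        map_add' := fun a b => LinearMap.ext fun w => Subtype.ext (by simp)
        map_smul' := fun a b => LinearMap.ext fun w => Subtype.ext (by simp) }
    rw [halve hx ((h2 x y).trans (by rw [hy, one_smul])), pow_succ']
    refine Nat.mul_dvd_mul_left 2 (ih M' _ L' (B.domRestrict₁₂ M' M') (fun a => (h1 a).elim fun c hc =>
      ⟨c, LinearMap.ext fun w => Subtype.ext (LinearMap.congr_fun hc w)⟩) (fun a b =>
      LinearMap.ext fun w => Subtype.ext (LinearMap.congr_fun (h2 a b) w)) (fun a ha => ?_) ?_)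
    · refine Subtype.ext (h3 a fun b => ?_)
      have a1 : B a x = 0 := (hs _ _).trans a.2.1
      have a2 : B a y = 0 := (hs _ _).trans a.2.2
      have := ha ⟨b - B x b • y - (B y b - B x b * B y y) • x, by simp [hy, hxx], by simp [hs y x, hy]⟩
      rw [LinearMap.domRestrict₁₂_apply] at this
      simpa [a1, a2] using this
    · have e1 := (B x).finrank_range_add_finrank_ker
      have e2 := (B y).finrank_range_add_finrank_ker
      have e3 := Submodule.finrank_sup_add_finrank_inf_eq (B x).ker (B y).ker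
      have e4 := (B x).range.finrank_le
      have e5 := (B y).range.finrank_le
      have e6 := ((B x).ker ⊔ (B y).ker).finrank_le
      rw [finrank_self] at e4 e5
      change _ ≤ finrank k ↥((B x).ker ⊓ (B y).ker)
      omega

theorem clif_gen [IsAlgClosed k] {W : Type*} [AddCommGroup W] [Module k W] [FiniteDimensional k W]
    {n m : ℕ} (x : Fin n → End k W) {α β : k} (h1 : ∀ i, ∃ c : k, x i * x i = c • 1)
    (h2 : ∀ i j, x i * x j + x j * x i = ((if i = j then α else 0) + β) • 1) (hα : α ≠ 0)
    (hβ : α + n * β ≠ 0) (hm : 2 * m ≤ n) : 2 ^ m ∣ finrank k W := by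
  let L := Fintype.linearCombination k x
  let B : (Fin n → k) →ₗ[k] (Fin n → k) →ₗ[k] k :=
    Matrix.toLinearMap₂' k (Matrix.of fun i j : Fin n => (if i = j then α else 0) + β)
  have hB : ∀ a b, L a * L b + L b * L a = B a b • 1 := fun a b => by
    simp only [L, B, Fintype.linearCombination_apply, Finset.sum_mul_sum, Matrix.toLinearMap₂'_apply,
      Finset.sum_smul, smul_mul_smul_comm]
    rw [Finset.sum_comm (f := fun j i => (b j * a i) • _), ← Finset.sum_add_distrib]
    refine Finset.sum_congr rfl fun i _ => ?_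
    rw [← Finset.sum_add_distrib]
    refine Finset.sum_congr rfl fun j _ => ?_
    rw [mul_comm (b j), ← smul_add, h2, smul_smul]
    simp [mul_assoc]
  refine clif m _ W L B (fun a => ?_) hB (fun a ha => ?_) (by simpa using hm)
  · induction a using Pi.single_induction with
    | zero => exact ⟨0, by simp⟩
    | add a b ha hb =>
      obtain ⟨c, hc⟩ := ha
      obtain ⟨d, hd⟩ := hb
      exact ⟨c + B a b + d, by
        rw [add_smul, add_smul, ← hc, ← hd, ← hB, map_add]; noncomm_ring⟩
    | single i t =>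
      obtain ⟨c, hc⟩ := h1 i
      exact ⟨t * t * c, by simp [L, hc, smul_smul, mul_assoc]⟩
  · have h3 : ∀ j, a j * α + (∑ i, a i) * β = 0 := fun j => by
      simpa [B, Matrix.toLinearMap₂'_apply, Pi.single_apply, mul_add, Finset.sum_add_distrib,
        Finset.sum_mul] using ha (Pi.single j 1)
    have h4 : (∑ i, a i) * (α + n * β) = 0 := by
      have := Finset.sum_eq_zero (s := Finset.univ) fun j _ => h3 j
      rw [Finset.sum_add_distrib, ← Finset.sum_mul] at this
      simp only [Finset.sum_const, Finset.card_univ, Fintype.card_fin, nsmul_eq_mul] at this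
      linear_combination this
    exact funext fun j => by simpa [(mul_eq_zero.1 h4).resolve_right hβ, hα] using h3 j

variable [IsAlgClosed k] {W : Type*} [AddCommGroup W] [Module k W] [FiniteDimensional k W]

theorem clif_odd {n m : ℕ} (s : Fin n → End k W) (h1 : ∀ i, s i * s i + s i + 1 = 0)
    (h2 : ∀ i j, i ≠ j → s i * s j + s j * s i + s i + s j + 1 = 0) (hα : (2 : k) ≠ 0)
    (hβ : (n : k) + 2 ≠ 0) (hm : 2 * m ≤ n) : 2 ^ m ∣ finrank k W := by
  have h3 : ∀ i, (s i + s i + 1) * (s i + s i + 1) = (-3 : k) • 1 := fun i => by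
    simp only [add_mul, mul_add, mul_one, one_mul]
    linear_combination (norm := module) (4 : k) • h1 i
  refine clif_gen (fun i => s i + s i + 1) (α := -(2 * 2)) (β := -2) (fun i => ⟨_, h3 i⟩)
    (fun i j => ?_) (by simpa using hα) (fun e => mul_ne_zero hα hβ (by linear_combination -e)) hm
  split_ifs with e
  · rw [e, h3]
    module
  · simp only [add_mul, mul_add, mul_one, one_mul]
    linear_combination (norm := module) (4 : k) • h2 i j e

theorem clif_two (s : Fin 16 → End k W) (h1 : ∀ i, s i * s i + s i + 1 = 0)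
    (h2 : ∀ i j, i ≠ j → s i * s j + s j * s i + s i + s j + 1 = 0) (hα : (2 : k) = 0) :
    2 ^ 8 ∣ finrank k W := by
  let x : Fin 15 → End k W := fun i => s i.succ - s 0
  have h3 : ∀ i, x i * x i = -1 := fun i => by
    simp only [x, sub_mul, mul_sub]
    linear_combination (norm := module) h1 i.succ + h1 0 - h2 _ _ i.succ_ne_zero
  have h4 : ∀ i j, i ≠ j → x i * x j + x j * x i = -1 := fun i j e => by
    simp only [x, sub_mul, mul_sub]
    linear_combination (norm := module) h2 _ _ ((Fin.succ_injective _).ne e) + h1 0 + h1 0 -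
      h2 _ _ i.succ_ne_zero - h2 _ _ j.succ_ne_zero
  have h5 : ∀ i j, x i * x j + x j * x i = ((if i = j then -1 else 0) + -1 : k) • 1 := fun i j => by
    split_ifs with e
    · rw [e, h3]
      module
    · rw [h4 i j e]
      module
  have h6 : ∀ T : Finset (Fin 15), (∑ i ∈ T, x i) * ∑ i ∈ T, x i =
      -((T.card + 1).choose 2 : k) • 1 := fun T => by
    induction T using Finset.induction_on with
    | empty => simp
    | insert a T ha ih =>
      have : x a * ∑ i ∈ T, x i + (∑ i ∈ T, x i) * x a = -(T.card : k) • 1 := by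
        rw [Finset.mul_sum, Finset.sum_mul, ← Finset.sum_add_distrib,
          Finset.sum_congr rfl fun i hi => h4 a i (by rintro rfl; exact ha hi)]
        simp [Nat.cast_smul_eq_nsmul]
      rw [Finset.sum_insert ha, Finset.card_insert_of_notMem ha, Nat.choose_succ_succ' (_ + 1),
        Nat.choose_one_right, add_mul, mul_add, mul_add, ih, h3]
      push_cast
      linear_combination (norm := module) this
  set ρ := ∑ i, x i with hρ
  have h0 : ∀ T : End k W, T + T = 0 := fun T => by rw [← two_smul k, hα, zero_smul]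
  have h7 : ρ * ρ = 0 := by
    rw [h6, show (((Finset.univ : Finset (Fin 15)).card + 1).choose 2 : k) = 2 * 60 by
      norm_num [Nat.choose], hα]
    simp
  have h8 : ∀ i, ρ * x i + x i * ρ = 0 := fun i => by
    rw [Finset.mul_sum, Finset.sum_mul, ← Finset.sum_add_distrib, Finset.sum_congr rfl fun j _ => h5 j i,
      ← Finset.sum_smul, Finset.sum_add_distrib]
    simp only [Finset.sum_ite_eq', Finset.mem_univ, if_true, Finset.sum_const, Finset.card_univ,
      Fintype.card_fin, nsmul_eq_mul]
    rw [show (-1 + (15 : ℕ) * -1 : k) = 2 * -8 by norm_num, hα]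
    simp
  have h9 : ρ * s 0 + s 0 * ρ = 1 - ρ := by
    rw [hρ, Finset.mul_sum, Finset.sum_mul, ← Finset.sum_add_distrib,
      Finset.sum_congr rfl (g := fun i => 1 - x i) fun i _ => by
        simp only [x, sub_mul, mul_sub]
        linear_combination (norm := module) h2 _ _ i.succ_ne_zero - h1 0 - h1 0,
      Finset.sum_sub_distrib, Finset.sum_const, Finset.card_univ, Fintype.card_fin]
    linear_combination (norm := module) h0 (7 • 1)
  have hM : ∀ i, ∀ w ∈ ρ.ker, x i w ∈ ρ.ker := fun i w hw => by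
    simpa [LinearMap.mem_ker.1 hw] using LinearMap.congr_fun (h8 i) w
  rw [halve (y := s 0 * (1 + ρ)) h7 (by
    rw [← mul_assoc, eq_sub_of_add_eq h9]
    simp only [mul_add, add_mul, sub_mul, mul_assoc, h7]
    module), pow_succ']
  refine Nat.mul_dvd_mul_left 2 (clif_gen (fun i : Fin 14 => (x i.castSucc).restrict (hM _))
    (α := -1) (β := -1) (fun i => ⟨-1, LinearMap.ext fun w => Subtype.ext ?_⟩)
    (fun i j => LinearMap.ext fun w => Subtype.ext ?_) (by simp) ?_ le_rfl)
  · simpa using LinearMap.congr_fun (h3 i.castSucc) w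
  · simpa using LinearMap.congr_fun (h5 i.castSucc j.castSucc) w
  · rw [show (-1 + (14 : ℕ) * -1 : k) = 2 * -8 + 1 by norm_num, hα]
    simp

end Cfsg.Agent.Chev.AS
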