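import Mathlib
import Cfsg.Agent.Chev.ASFam

/-!
# Alternating sections of E6, E7, E8: the cases decided by one odd prime
-/

set_option autoImplicit false

namespace Cfsg.Agent.Chev.AS

open Module Function Subgroup Equiv Equiv.Perm Cfsg.Lie AltSec

universe u

instance fact5 : Fact (Nat.Prime 5) := ⟨by norm_num⟩
instance fact7 : Fact (Nat.Prime 7) := ⟨by norm_num⟩
instance fact11 : Fact (Nat.Prime 11) := ⟨by norm_num⟩
instance fact13 : Fact (Nat.Prime 13) := ⟨by norm_num⟩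
instance fact17 : Fact (Nat.Prime 17) := ⟨by norm_num⟩

variable {F : Type u} [Field F] [Finite F] (p : ℕ) [hp : Fact p.Prime] [CharP F p]

theorem not_dvd_ker {D : ChevalleyDatum}
    (hD : D ∈ [chevG2, chevB2, chevD4, chevF4, chevE6, chevE7, chevE8]) (T : RootTable D) {r l j N : ℕ}
    [Fact l.Prime] (hl : l ≠ p) (h2 : l ≠ 2) (hr : 8 ≤ r) (hW : ¬ l ^ (j + 1) ∣ Nat.card T.W)
    (hN : D.rank + j < N) (hL : Low.{u} r l N) {A : Type u} [Group A] [Finite A]
    {ι : A →* D.SteinbergGroup F} {f : A →* alternatingGroup (Fin r)} (h : MinCov ι f) :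
    ¬ l ∣ Nat.card f.ker :=
  h.frat.not_dvd hr h2 (h.frat.le_center (by omega) hL fun _ hR =>
    (hR.relIndex_le hD T p hl hW h.inj).trans_lt (Nat.pow_lt_pow_right (Fact.out : l.Prime).one_lt hN))

theorem cardW6 : Nat.card rootTableE6.W = 51840 := cardE6 rootTableE6.cs

theorem cardW7 : Nat.card rootTableE7.W = 2903040 := cardE7 rootTableE7.cs

theorem cardW8 : Nat.card rootTableE8.W = 696729600 := cardE8 rootTableE8.cs

theorem not_cov_E7_14 (hl : 7 ≠ p) : ¬ Cov (chevE7.group F) 14 := fun h => by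
  have := Fintype.ofFinite F
  have := Mult.finite_steinbergGroup (D := chevE7) (F := F) (by simp)
  obtain ⟨A, f, h⟩ := exists_minCov' (by simp) h
  obtain ⟨I, _, ρ, hρ⟩ := exists_rep7 (algebraMap F (AlgebraicClosure F))
  obtain ⟨ψ, hψ⟩ := exists_psi (cast_ne (AlgebraicClosure F) p hl.symm)
  have hK := not_dvd_ker p (by simp) rootTableE7 (j := 1) hl (by norm_num) (by norm_num)
    (by rw [cardW7]; norm_num) (by decide +kernel) (RatEl.low (q := 11) (u := 6)
      (g := c[0, 1, 2, 3, 4, 5, 6, 7, 8, 9, 10]) (h := c[1, 2, 4, 8, 5, 10, 9, 7, 3, 6] * c[11, 12])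
      (by decide +kernel) (by norm_num)) h
  replace hρ := hρ.comp h.inj
  obtain ⟨c, h1, h2, h3, a, ha⟩ := fam7_ok.lift (ρ.comp A.subtype) h.surj hK ψ
  have hF := fam_of (ρ.comp A.subtype) h2 h3
  have e0 := hF.finrank_wt hψ ha (L := [1, 12, 36]) (by decide +kernel)
  obtain ⟨r1, e1⟩ := hF.ed_one hψ ha 0 (L := [1, 6, 0]) (L' := [0, 1, 6]) (by decide +kernel)
  obtain ⟨r2, e2⟩ := hF.ed_two hψ ha 0 1 (L := [1, 0, 6]) (L' := [0, 2, 5]) (by decide +kernel)
  rw [← map_mul] at r2 e2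
  have k1 := hρ.rat ok7 chk7_7 (by decide +kernel) hψ (h3 0)
    (fun e => absurd (show fam7.c 0 = 1 by rw [← h1, e, map_one, Subgroup.coe_one]) (by decide +kernel)) r1
  have k2 := hρ.rat ok7 chk7_7 (by decide +kernel) hψ (by rw [(h2 0 1).mul_pow, h3, h3, mul_one])
    (fun e => absurd (show fam7.c 0 * fam7.c 1 = 1 by
      rw [← h1, ← h1, ← Subgroup.coe_mul, ← map_mul, e, map_one, Subgroup.coe_one]) (by decide +kernel)) r2
  rw [hρ.dim, show alc7.W.length = 56 by decide +kernel] at e0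
  rw [e1] at k1
  rw [e2] at k2
  simp [Finset.sum_range_succ] at e0 k1 k2
  omega

theorem not_cov_E7_15 (hl : 5 ≠ p) : ¬ Cov (chevE7.group F) 15 := fun h => by
  have := Fintype.ofFinite F
  have := Mult.finite_steinbergGroup (D := chevE7) (F := F) (by simp)
  obtain ⟨A, f, h⟩ := exists_minCov' (by simp) h
  obtain ⟨I, _, ρ, hρ⟩ := exists_rep7 (algebraMap F (AlgebraicClosure F))
  obtain ⟨ψ, hψ⟩ := exists_psi (cast_ne (AlgebraicClosure F) p hl.symm)
  have hK := not_dvd_ker p (by simp) rootTableE7 (j := 1) hl (by norm_num) (by norm_num)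
    (by rw [cardW7]; norm_num) (by decide +kernel) (RatEl.low (q := 11) (u := 6)
      (g := c[0, 1, 2, 3, 4, 5, 6, 7, 8, 9, 10]) (h := c[1, 2, 4, 8, 5, 10, 9, 7, 3, 6] * c[11, 12])
      (by decide +kernel) (by norm_num)) h
  replace hρ := hρ.comp h.inj
  obtain ⟨c, h1, h2, h3, a, ha⟩ := fam5_ok.lift (ρ.comp A.subtype) h.surj hK ψ
  have hF := fam_of (ρ.comp A.subtype) h2 h3
  have e0 := hF.finrank_wt hψ ha (L := [1, 12, 48, 64]) (by decide +kernel)
  obtain ⟨r1, e1⟩ := hF.ed_one hψ ha 0 (L := [1, 8, 16, 0]) (L' := [0, 1, 8, 16]) (by decide +kernel)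
  have k1 := hρ.rat ok7 chk7_5 (by decide +kernel) hψ (h3 0)
    (fun e => absurd (show fam5.c 0 = 1 by rw [← h1, e, map_one, Subgroup.coe_one]) (by decide +kernel)) r1
  rw [hρ.dim, show alc7.W.length = 56 by decide +kernel] at e0
  rw [e1] at k1
  simp [Finset.sum_range_succ] at e0 k1
  omega

theorem le_E7 {r : ℕ} (h : Cov (chevE7.group F) r) : r ≤ 13 + (if p = 7 then 1 else 0) := by
  by_contra hr
  split_ifs at hr with h7
  · exact not_cov_E7_15 p (by omega) (h.mono (by omega))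
  · exact not_cov_E7_14 p (by omega) (h.mono (by omega))

theorem not_cov_E6_13 (hl : 11 ≠ p) : ¬ Cov (chevE6.group F) 13 := fun h => by
  have := Fintype.ofFinite F
  have := Mult.finite_steinbergGroup (D := chevE6) (F := F) (by simp)
  obtain ⟨A, f, h⟩ := exists_minCov' (by simp) h
  obtain ⟨I, _, ρ, hρ⟩ := exists_rep6 (algebraMap F (AlgebraicClosure F))
  obtain ⟨ψ, hψ⟩ := exists_psi (cast_ne (AlgebraicClosure F) p hl.symm)
  have hK := not_dvd_ker p (by simp) rootTableE6 (j := 0) (N := 8) hl (by norm_num) (by norm_num)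
    (by rw [cardW6]; norm_num) (by decide +kernel) (RatEl.low₂ (q := 5) (u := 3) (q' := 5) (u' := 3)
      (g := c[0, 1, 2, 3, 4]) (h := c[1, 2, 4, 3] * c[10, 11]) (g' := c[5, 6, 7, 8, 9])
      (h' := c[6, 7, 9, 8] * c[10, 11]) (t := c[6, 9] * c[7, 8]) (by decide +kernel) (by norm_num)
      (by decide +kernel) (by norm_num) (by decide) (by decide +kernel) (by norm_num)) h
  obtain ⟨c, h1, h2, h3⟩ := RatEl.lift (ρ.comp A.subtype) h.surj hK ψ (u := 6)
    (g := c[0, 1, 2, 3, 4, 5, 6, 7, 8, 9, 10]) (h := c[1, 2, 4, 8, 5, 10, 9, 7, 3, 6] * c[11, 12])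
    (by decide +kernel)
  simpa using (hρ.comp h.inj).rat ok6 chk6_11 (by decide +kernel) hψ h1 h2 h3

theorem not_cov_E8_19 (hl : 17 ≠ p) : ¬ Cov (chevE8.group F) 19 := fun h => by
  have := Fintype.ofFinite F
  have := Mult.finite_steinbergGroup (D := chevE8) (F := F) (by simp)
  obtain ⟨A, f, h⟩ := exists_minCov' (by simp) h
  obtain ⟨I, _, ρ, hρ⟩ := exists_rep8 (algebraMap F (AlgebraicClosure F))
  obtain ⟨ψ, hψ⟩ := exists_psi (cast_ne (AlgebraicClosure F) p hl.symm)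
  have hK := not_dvd_ker p (by simp) rootTableE8 (j := 0) hl (by norm_num) (by norm_num)
    (by rw [cardW8]; norm_num) (by decide +kernel) (RatEl.low (q := 11) (u := 6)
      (g := c[0, 1, 2, 3, 4, 5, 6, 7, 8, 9, 10]) (h := c[1, 2, 4, 8, 5, 10, 9, 7, 3, 6] * c[11, 12])
      (by decide +kernel) (by norm_num)) h
  obtain ⟨c, h1, h2, h3⟩ := RatEl.lift (ρ.comp A.subtype) h.surj hK ψ (u := 6)
    (g := c[0, 1, 2, 3, 4, 5, 6, 7, 8, 9, 10, 11, 12, 13, 14, 15, 16])
    (h := c[1, 3, 9, 10, 13, 5, 15, 11, 16, 14, 8, 7, 4, 12, 2, 6] * c[17, 18]) (by decide +kernel)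
  simpa using (hρ.comp h.inj).rat ok8 chk8_17 (by decide +kernel) hψ h1 h2 h3

end Cfsg.Agent.Chev.AS
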