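import Mathlib
import Cfsg.Agent.Chev.ASE7

/-!
# Elementary abelian 2- and 3-subgroups: bounds from traces
-/

set_option autoImplicit false

namespace Cfsg.Agent.Chev.AS

open Module Function Subgroup Matrix
open scoped commutatorElement IsMulCommutative

section Comb

variable {l : ℕ} [hl : Fact l.Prime]

/-- The trace of a root of unity. -/
def sg (a : ZMod l) : ℤ := if a = 0 then l - 1 else -1

theorem card_dvd_sum {E : Type*} [AddCommGroup E] [Fintype E] (φ : E →+ ZMod l) :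
    (Fintype.card E : ℤ) ∣ ∑ v, sg (φ v) := by
  classical
  have h1 : ∑ v, sg (φ v) = l * Nat.card φ.ker - Fintype.card E := by
    have : ∀ v, sg (φ v) = (if φ v = 0 then (l : ℤ) else 0) - 1 := fun v => by
      rw [sg]; split_ifs <;> simp
    simp only [this, Finset.sum_sub_distrib, ← Finset.sum_filter, Finset.sum_const, nsmul_eq_mul,
      Finset.card_univ, mul_one]
    rw [Nat.card_eq_fintype_card, Fintype.card_subtype, mul_comm]
    simp
  have h2 := φ.ker.card_mul_index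
  rw [AddSubgroup.index_ker, Nat.card_eq_fintype_card (α := E)] at h2
  have h3 := φ.range.card_addSubgroup_dvd_card
  rw [Nat.card_zmod] at h3
  rw [h1, ← h2]
  push_cast
  exact dvd_sub (mul_comm (l : ℤ) _ ▸ mul_dvd_mul_left _ (by exact_mod_cast h3)) dvd_rfl

variable {n : ℕ} (m : (Fin n → ZMod l) → ℕ)

/-- The multiplicity of an eigenvalue. -/
def dd (v : Fin n → ZMod l) (a : ZMod l) : ℕ := ∑ χ, if χ ⬝ᵥ v = a then m χ else 0

theorem sum_fiber (v : Fin n → ZMod l) (F : ZMod l → ℤ) :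
    ∑ χ, m χ * F (χ ⬝ᵥ v) = ∑ a, dd m v a * F a := by
  simp only [dd, Nat.cast_sum, Finset.sum_mul]
  rw [Finset.sum_comm]
  refine Finset.sum_congr rfl fun χ _ => ?_
  rw [Finset.sum_eq_single (χ ⬝ᵥ v) (fun a _ h => by simp [h.symm]) (by simp)]
  simp

theorem dvd_dot (χ : Fin n → ZMod l) : ((l : ℤ) ^ n) ∣ ∑ v, sg (χ ⬝ᵥ v) := by
  simpa using card_dvd_sum (l := l) ⟨⟨(χ ⬝ᵥ ·), dotProduct_zero χ⟩, dotProduct_add χ⟩

theorem dvd_one : ((l : ℤ) ^ n) ∣ ∑ v, ∑ a, dd m v a * sg a := by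
  simp only [← sum_fiber]
  rw [Finset.sum_comm]
  exact Finset.dvd_sum fun χ _ => by rw [← Finset.mul_sum]; exact (dvd_dot χ).mul_left _

theorem dvd_two : ((l : ℤ) ^ n) ∣ ∑ v, ∑ a, dd m v a * ∑ b, dd m v b * sg (a - b) := by
  simp only [← sum_fiber, ← sub_dotProduct]
  rw [Finset.sum_comm]
  refine Finset.dvd_sum fun χ _ => ?_
  rw [← Finset.mul_sum, Finset.sum_comm]
  exact (Finset.dvd_sum fun χ _ => by rw [← Finset.mul_sum]; exact (dvd_dot _).mul_left _).mul_left _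

theorem dvd_three : ((l : ℤ) ^ n) ∣
    ∑ v, ∑ a, dd m v a * ∑ b, dd m v b * ∑ c, dd m v c * sg (a + b + c) := by
  simp only [← sum_fiber, ← add_dotProduct]
  rw [Finset.sum_comm]
  refine Finset.dvd_sum fun χ _ => ?_
  rw [← Finset.mul_sum, Finset.sum_comm]
  refine (Finset.dvd_sum fun χ _ => ?_).mul_left _
  rw [← Finset.mul_sum, Finset.sum_comm]
  exact (Finset.dvd_sum fun χ _ => by rw [← Finset.mul_sum]; exact (dvd_dot _).mul_left _).mul_left _

theorem dd_zero (a : ZMod l) : dd m 0 a = if a = 0 then ∑ χ, m χ else 0 := by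
  rw [dd]
  split_ifs with h
  · simp [h]
  · simp [Ne.symm h]

theorem dd_sub {v w : Fin n → ZMod l} {a : ZMod l} (h1 : dd m v a = ∑ χ, m χ)
    (h2 : dd m w a = ∑ χ, m χ) : dd m (v - w) 0 = ∑ χ, m χ := by
  have key : ∀ {v}, dd m v a = ∑ χ, m χ → ∀ χ, (if χ ⬝ᵥ v = a then m χ else 0) = m χ := fun h χ =>
    (Finset.sum_eq_sum_iff_of_le fun χ _ => by split_ifs <;> simp).1 h χ (Finset.mem_univ _)
  refine Finset.sum_congr rfl fun χ _ => ?_
  have e1 := key h1 χ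
  have e2 := key h2 χ
  split_ifs at e1 e2 ⊢ with k1 k2 k3 <;> simp_all

theorem tt_two (m : (Fin n → ZMod 2) → ℕ) {x y : ℤ}
    (h : ∀ v, v ≠ 0 → (dd m v 0 : ℤ) - dd m v 1 = x ∨ (dd m v 0 : ℤ) - dd m v 1 = y) :
    (2 : ℤ) ^ n ∣ ((∑ χ, m χ : ℕ) - x) * ((∑ χ, m χ : ℕ) - y) := by
  have h1 := ((dvd_two m).sub ((dvd_one m).mul_left (x + y))).add
    (show ((2 : ℕ) : ℤ) ^ n ∣ ∑ _v : Fin n → ZMod 2, x * y by simp)
  have h2 : ∀ F : ZMod 2 → ℤ, ∑ a, F a = F 0 + F 1 := fun F => Fin.sum_univ_two F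
  rw [Finset.mul_sum, ← Finset.sum_sub_distrib, ← Finset.sum_add_distrib,
    Finset.sum_congr rfl (g := fun v => (dd m v 0 - dd m v 1 - x) * (dd m v 0 - dd m v 1 - y))
      fun v _ => by
        simp only [h2, show sg ((0 : ZMod 2) - 0) = 1 from rfl, show sg ((0 : ZMod 2) - 1) = -1 from rfl,
          show sg ((1 : ZMod 2) - 0) = -1 from rfl, show sg ((1 : ZMod 2) - 1) = 1 from rfl,
          show sg (0 : ZMod 2) = 1 from rfl, show sg (1 : ZMod 2) = -1 from rfl]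
        ring,
    Finset.sum_eq_single 0 (fun v _ hv => by rcases h v hv with h | h <;> simp [h]) (by simp)] at h1
  simpa [dd_zero] using h1

theorem tt_three (m : (Fin n → ZMod 3) → ℕ) (h0 : ∑ χ, m χ = 27)
    (h : ∀ v, v ≠ 0 → (dd m v 0, dd m v 1, dd m v 2) ∈
      [(0, 27, 0), (0, 0, 27), (15, 6, 6), (6, 15, 6), (6, 6, 15), (9, 9, 9)]) : n ≤ 9 := by
  have h1 := (dvd_three m).sub ((dvd_two m).mul_left 9)
  have h2 : ∀ F : ZMod 3 → ℤ, ∑ a, F a = F 0 + F 1 + F 2 := fun F => Fin.sum_univ_three F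
  have h3 : ∀ d : ZMod 3 → ℕ, (d 0, d 1, d 2) ∈ [(27, 0, 0), (0, 27, 0), (0, 0, 27), (15, 6, 6),
      (6, 15, 6), (6, 6, 15), (9, 9, 9)] → ∑ a, (d a : ℤ) * ∑ b, d b * ∑ c, d c * sg (a + b + c) -
        9 * ∑ a, (d a : ℤ) * ∑ b, d b * sg (a - b) = if ∃ a, d a = 27 then 26244 else 0 := by
    intro d hd
    have : (∃ a, d a = 27) ↔ d 0 = 27 ∨ d 1 = 27 ∨ d 2 = 27 := by
      change (∃ a : Fin 3, _) ↔ _
      simp only [Fin.exists_fin_succ, IsEmpty.exists_iff, or_false]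
      rfl
    simp only [h2, this]
    simp only [List.mem_cons, Prod.mk.injEq, List.not_mem_nil, or_false] at hd
    rcases hd with h | h | h | h | h | h | h <;> rw [h.1, h.2.1, h.2.2] <;> decide
  rw [Finset.mul_sum, ← Finset.sum_sub_distrib, Finset.sum_congr rfl fun v _ => h3 (dd m v) (by
    by_cases hv : v = 0
    · simp [hv, dd_zero, h0, show (2 : ZMod 3) ≠ 0 by decide]
    · exact List.mem_cons_of_mem _ (h v hv)), ← Finset.sum_filter, Finset.sum_const] at h1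
  set S := Finset.univ.filter fun v => ∃ a, dd m v a = 27
  have h4 : S.card ≤ 3 := by
    choose! g hg using fun v (hv : v ∈ S) => (Finset.mem_filter.1 hv).2
    refine (Finset.card_le_card_of_injOn g (t := Finset.univ) (by simp) fun v hv w hw e => ?_).trans
      (by simp)
    by_contra h5
    have h6 := h _ (sub_ne_zero.2 h5)
    rw [dd_sub m ((hg v hv).trans h0.symm) ((e ▸ hg w hw).trans h0.symm), h0] at h6
    simp at h6
  have h5 : 0 < S.card := Finset.card_pos.2 ⟨0, by simpa [S] using ⟨0, by simp [dd_zero, h0]⟩⟩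
  by_contra h6
  have h7 := (pow_dvd_pow _ (show 10 ≤ n by omega)).trans h1
  interval_cases S.card <;> simp at h7

end Comb

variable {A : Type*} [Group A] [Finite A] {k V : Type*} [Field k] [IsAlgClosed k] [AddCommGroup V]
  [Module k V] [FiniteDimensional k V]

theorem exists_dd {l : ℕ} [hl : Fact l.Prime] {R : Subgroup A} (h1 : ⁅R, R⁆ = ⊥)
    (h2 : ∀ x ∈ R, x ^ l = 1) (ρ : A →* End k V) {ψ : AddChar (ZMod l) k} (hψ : Psi ψ) :
    ∃ (n : ℕ) (m : (Fin n → ZMod l) → ℕ), Nat.card R = l ^ n ∧ ∑ χ, m χ = finrank k V ∧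
      ∀ v, v ≠ 0 → ∃ g, g ^ l = 1 ∧ g ≠ 1 ∧ ed ψ (ρ g) = dd m v := by
  have : IsMulCommutative R := ⟨⟨fun a b => Subtype.ext
    (commutatorElement_eq_one_iff_mul_comm.1 (h1.le (commutator_mem_commutator a.2 b.2)))⟩⟩
  obtain ⟨_⟩ : Nonempty (Module (ZMod l) (Additive R)) :=
    ⟨AddCommGroup.zmodModule fun x => Subtype.ext (h2 _ x.toMul.2)⟩
  have : Module.Finite (ZMod l) (Additive R) := Module.Finite.of_finite
  let b := (finBasis (ZMod l) (Additive R)).equivFun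
  let e : (Fin (finrank (ZMod l) (Additive R)) → ZMod l) → A := fun v => (b.symm v).toMul
  have e1 : ∀ v w, e (v + w) = e v * e w := fun v w => by simp [e]
  have e0 : e 0 = 1 := by simp [e]
  have e2 : ∀ v, e v ^ l = 1 := fun v => h2 _ (b.symm v).toMul.2
  have e3 : ∀ v w, Commute (e v) (e w) := fun v w => by rw [Commute, SemiconjBy, ← e1, ← e1, add_comm]
  have hF := fam_of ρ (c := fun i => e (Pi.single i 1)) (fun _ _ => e3 _ _) fun _ => e2 _
  refine ⟨_, mu ψ _, (FiniteField.pow_finrank_eq_natCard l (Additive R)).symm,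
    (hF.finrank_top hψ).symm, fun v hv => ⟨e v, e2 v, fun h => hv (b.symm.injective ?_),
      funext (hF.ed_eq hψ (fun i => (e3 _ _).map ρ) (· ⬝ᵥ v) fun χ x hx => ?_)⟩⟩
  · rw [map_zero]
    exact Subtype.ext h
  · clear hv
    induction v using Pi.single_induction with
    | zero => simp [e0]
    | add v w hv hw =>
      rw [e1, map_mul, End.mul_apply, hw, map_smul, hv, smul_smul, dotProduct_add,
        AddChar.map_add_eq_mul, mul_comm]
    | single i a =>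
      obtain ⟨j, rfl⟩ := ZMod.natCast_zmod_surjective a
      induction j with
      | zero => simp [e0]
      | succ j ih =>
        rw [Nat.cast_succ, Pi.single_add, e1, map_mul, End.mul_apply, mem_J.1 hx, map_smul, ih,
          smul_smul, dotProduct_add, AddChar.map_add_eq_mul, mul_comm]
        simp

variable {ρ : A →* End k V} {B : Alc}

omit [Finite A] in
theorem IsRep.eq_one (h : IsRep B ρ) (hB : B.Ok) {q : ℕ} [NeZero q] {P : ℕ → Bool}
    (hP : enum B.m q (B.leaf q P) = true) (h0 : P B.W.length = false) (hq : (q : k) ≠ 0) (g : A)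
    (hg : g ^ q = 1) (h1 : ρ g = 1) : g = 1 := by
  by_contra h2
  obtain ⟨ψ, hψ⟩ := exists_psi hq
  have h3 := h.test hB hP hψ hg h2
  have h4 : ed ψ (ρ g) 0 = finrank k V := by
    rw [ed, h1, show End.eigenspace (1 : End k V) (ψ 0) = ⊤ from
      eq_top_iff.2 fun x _ => End.mem_eigenspace_iff.2 (by simp), finrank_top]
  have h5 := sum_ed hψ (g := ρ g) (by simp [h1])
  rw [← Finset.add_sum_erase _ _ (Finset.mem_univ 0), h4, add_eq_left, Finset.sum_eq_zero_iff] at h5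
  rw [prof, ← Finset.add_sum_erase _ _ (Finset.mem_univ 0), Finset.sum_eq_zero fun x hx => by
    rw [h5 x hx, zero_mul], h4, h.dim] at h3
  simp [h0] at h3

theorem IsRep.card_two (h : IsRep B ρ) (hB : B.Ok) {d x y : ℕ}
    (hP : enum B.m 2 (B.leaf 2 (ratP d 2 [x, y])) = true) (hd : B.W.length = d ∧ d < 256)
    (h2 : ((2 : ℕ) : k) ≠ 0) {R : Subgroup A} (h1 : ⁅R, R⁆ = ⊥) (h3 : ∀ x ∈ R, x ^ 2 = 1) :
    (Nat.card R : ℤ) ∣ (d - (2 * x - d)) * (d - (2 * y - d)) := by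
  obtain ⟨ψ, hψ⟩ := exists_psi h2
  obtain ⟨n, m, e1, e2, e3⟩ := exists_dd h1 h3 ρ hψ
  rw [e1, ← hd.1, ← h.dim, ← e2]
  refine tt_two m fun v hv => ?_
  obtain ⟨g, k1, k2, k3⟩ := e3 v hv
  have k4 := h.rat hB hP ⟨hd.1, hd.2, by decide +kernel⟩ hψ k1 k2 fun x hx => by
    rw [show x = 1 by revert x; decide]
  have k5 : ed ψ (ρ g) 0 + ed ψ (ρ g) 1 = _ := (Fin.sum_univ_two _).symm.trans
    (sum_ed hψ (g := ρ g) (by rw [← map_pow, k1, map_one]))
  rw [← k3, e2]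
  simp only [List.mem_cons, List.not_mem_nil, or_false] at k4
  omega

theorem prof_aux {a b c : ℕ} (h : a + b + c = 27) (h1 : a * 1 + b * 256 + c * 65536 ∈
    [27 * 256, 27 * 65536, 15 + 6 * 256 + 6 * 65536, 6 + 15 * 256 + 6 * 65536,
      6 + 6 * 256 + 15 * 65536, 9 + 9 * 256 + 9 * 65536]) :
    (a, b, c) ∈ [(0, 27, 0), (0, 0, 27), (15, 6, 6), (6, 15, 6), (6, 6, 15), (9, 9, 9)] := by
  simp only [List.mem_cons, List.not_mem_nil, or_false, Prod.mk.injEq] at h1 ⊢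
  rcases h1 with h | h | h | h | h | h <;> omega

omit [Finite A] in
theorem IsRep.prof_three (h : IsRep alc6 ρ) {ψ : AddChar (ZMod 3) k} (hψ : Psi ψ) {g : A}
    (k1 : g ^ 3 = 1) (k2 : g ≠ 1) : (ed ψ (ρ g) 0, ed ψ (ρ g) 1, ed ψ (ρ g) 2) ∈
      [(0, 27, 0), (0, 0, 27), (15, 6, 6), (6, 15, 6), (6, 6, 15), (9, 9, 9)] := by
  have k4 := h.test ok6 chk6_3 hψ k1 k2
  have h2 : ∀ F : ZMod 3 → ℕ, ∑ a, F a = F 0 + F 1 + F 2 := fun F => Fin.sum_univ_three F
  have k5 := sum_ed hψ (g := ρ g) (by rw [← map_pow, k1, map_one])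
  rw [prof, h2, show (256 : ℕ) ^ (0 : ZMod 3).val = 1 from rfl,
    show (256 : ℕ) ^ (1 : ZMod 3).val = 256 from rfl,
    show (256 : ℕ) ^ (2 : ZMod 3).val = 65536 from rfl] at k4
  rw [h.dim, show alc6.W.length = 27 by decide +kernel, h2] at k5
  exact prof_aux k5 (List.mem_of_elem_eq_true k4)

theorem IsRep.card_three (h : IsRep alc6 ρ) (h2 : ((3 : ℕ) : k) ≠ 0) {R : Subgroup A}
    (h1 : ⁅R, R⁆ = ⊥) (h3 : ∀ x ∈ R, x ^ 3 = 1) : Nat.card R ≤ 3 ^ 9 := by
  obtain ⟨ψ, hψ⟩ := exists_psi h2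
  obtain ⟨n, m, e1, e2, e3⟩ := exists_dd h1 h3 ρ hψ
  rw [e1]
  refine Nat.pow_le_pow_right (by norm_num) (tt_three m (e2.trans h.dim) fun v hv => ?_)
  obtain ⟨g, k1, k2, k3⟩ := e3 v hv
  exact k3 ▸ h.prof_three hψ k1 k2

end Cfsg.Agent.Chev.AS
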