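import Mathlib
import Cfsg.Agent.Chev.ASTT

/-!
# The kernels of minimal covers of `A₁₂` in E6 and of `A₁₈` in E8 are central
-/

set_option autoImplicit false

namespace Cfsg.Agent.Chev.AS

open Module Function Subgroup Equiv Equiv.Perm Cfsg.Lie AltSec
open scoped commutatorElement

universe u

theorem prime_cases {l n : ℕ} (hl : l.Prime) (h : l ∣ n) (hn : n ∣ 210 ^ 14) :
    l = 2 ∨ l = 3 ∨ l = 5 ∨ l = 7 :=
  have h1 := hl.dvd_of_dvd_pow (h.trans hn)
  (by decide +kernel : ∀ l < 211, l ∣ 210 → l.Prime → l = 2 ∨ l = 3 ∨ l = 5 ∨ l = 7) l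
    (Nat.lt_succ_of_le (Nat.le_of_dvd (by norm_num) h1)) h1 hl

theorem low12 (l : ℕ) [Fact l.Prime] (h1 : l ≠ 7) (h2 : l ≠ 5) : Low.{u} 12 l 10 :=
  RatEl.low₂ (q := 7) (u := 5) (q' := 5) (u' := 3) (g := c[0, 1, 2, 3, 4, 5, 6])
    (h := c[1, 3, 2, 6, 4, 5] * c[7, 8]) (g' := c[7, 8, 9, 10, 11]) (h' := c[0, 1] * c[8, 9, 11, 10])
    (t := c[8, 11] * c[9, 10]) (by decide +kernel) h1 (by decide +kernel) h2 (by decide)
    (by decide +kernel) (by norm_num)

theorem low12_5 : Low.{u} 12 5 8 :=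
  RatEl.low₂ (q := 7) (u := 5) (q' := 3) (u' := 2) (g := c[0, 1, 2, 3, 4, 5, 6])
    (h := c[1, 3, 2, 6, 4, 5] * c[7, 8]) (g' := c[7, 8, 9]) (h' := c[0, 1] * c[8, 9])
    (t := c[8, 9] * c[10, 11]) (by decide +kernel) (by norm_num) (by decide +kernel) (by norm_num)
    (by decide) (by decide +kernel) (by norm_num)

theorem low12_7 : Low.{u} 12 7 8 :=
  RatEl.low₂ (q := 5) (u := 3) (q' := 5) (u' := 3) (g := c[0, 1, 2, 3, 4])
    (h := c[1, 2, 4, 3] * c[5, 6]) (g' := c[5, 6, 7, 8, 9]) (h' := c[0, 1] * c[6, 7, 9, 8])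
    (t := c[6, 9] * c[7, 8]) (by decide +kernel) (by norm_num) (by decide +kernel) (by norm_num)
    (by decide) (by decide +kernel) (by norm_num)

theorem low18 (l : ℕ) [Fact l.Prime] (h1 : l ≠ 13) (h2 : l ≠ 5) : Low.{u} 18 l 16 :=
  RatEl.low₂ (q := 13) (u := 7) (q' := 5) (u' := 3) (g := c[0, 1, 2, 3, 4, 5, 6, 7, 8, 9, 10, 11, 12])
    (h := c[1, 2, 4, 8, 3, 6, 12, 11, 9, 5, 10, 7] * c[13, 14]) (g' := c[13, 14, 15, 16, 17])
    (h' := c[0, 1] * c[14, 15, 17, 16]) (t := c[14, 17] * c[15, 16]) (by decide +kernel) h1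
    (by decide +kernel) h2 (by decide) (by decide +kernel) (by norm_num)

theorem low18' (l : ℕ) [Fact l.Prime] (h1 : l ≠ 13) : Low.{u} 18 l 12 :=
  RatEl.low (q := 13) (u := 7) (g := c[0, 1, 2, 3, 4, 5, 6, 7, 8, 9, 10, 11, 12])
    (h := c[1, 2, 4, 8, 3, 6, 12, 11, 9, 5, 10, 7] * c[13, 14]) (by decide +kernel) h1

theorem low18_13 : Low.{u} 18 13 10 :=
  RatEl.low (q := 11) (u := 6) (g := c[0, 1, 2, 3, 4, 5, 6, 7, 8, 9, 10])
    (h := c[1, 2, 4, 8, 5, 10, 9, 7, 3, 6] * c[11, 12]) (by decide +kernel) (by norm_num)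

variable {A : Type u} [Group A] [Finite A] {k V : Type*} [Field k] [IsAlgClosed k] [AddCommGroup V]
  [Module k V] [FiniteDimensional k V] {ρ : A →* End k V}

theorem MinNC.lt {B : Alc} (h : IsRep B ρ) (hB : B.Ok) {l N : ℕ} [Fact l.Prime] {P : ℕ → Bool}
    (hP : enum B.m l (B.leaf l P) = true) (h0 : P B.W.length = false ∧ B.W.length ^ 2 < N)
    (hl : (l : k) ≠ 0) {R : Subgroup A} (hR : MinNC l R)
    (h1 : ⁅R, R⁆ = ⊥ → (∀ x ∈ R, x ^ l = 1) → Nat.card R < N) : (center A).relIndex R < N := by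
  by_cases e : ⁅R, R⁆ = ⊥
  · exact (Nat.le_of_dvd Nat.card_pos (relIndex_dvd_card _ _)).trans_lt (h1 e (hR.elem e))
  · exact (hR.relIndex_le_sq e hl ρ (h.eq_one hB hP h0.1 hl)).trans_lt (h.dim ▸ h0.2)

variable {F : Type u} [Field F] [Finite F] (p : ℕ) [hp : Fact p.Prime] [CharP F p] [CharP k p]

theorem ker6 (h2 : p ≠ 2) (h3 : p ≠ 3) {ι : A →* chevE6.SteinbergGroup F}
    {f : A →* alternatingGroup (Fin 12)} (h : MinCov ι f) (hρ : IsRep alc6 ρ) :
    f.ker ≤ center A ∧ Nat.card f.ker ≤ 2 := by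
  refine h.frat.central (by norm_num) fun l hl => ?_
  have := Fact.mk hl
  have := alternatingGroup.isSimpleGroup (α := Fin 12) (by simp)
  by_cases e : l = p
  · subst e
    exact fun L k1 k2 _ => (h.eq_bot (by simp) l (commutator_alternatingGroup_eq_top (by simp))
      k1 k2).le.trans bot_le
  have key : ∀ j N, ¬ l ^ (j + 1) ∣ 51840 → 6 + j < N → Low.{u} 12 l N → ∀ L : Subgroup A, L.Normal →
      IsPGroup l L → L ≤ f.ker → L ≤ center A := fun j N k1 k2 k3 =>
    h.frat.le_center (by norm_num) k3 fun R hR => (hR.relIndex_le (by simp) rootTableE6 p e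
      (cardW6 ▸ k1) h.inj).trans_lt (Nat.pow_lt_pow_right hl.one_lt k2)
  by_cases e2 : l = 2
  · subst e2
    refine h.frat.le_center (by norm_num) (low12 2 (by norm_num) (by norm_num)) fun R hR =>
      hR.lt hρ ok6 chk6_2 (by decide +kernel) (cast_ne k p h2) fun k1 k2 => ?_
    have := Int.le_of_dvd (by norm_num) (hρ.card_two ok6 chk6_2 (by decide +kernel) (cast_ne k p h2) k1 k2)
    omega
  by_cases e3 : l = 3
  · subst e3
    exact h.frat.le_center (by norm_num) (low12 3 (by norm_num) (by norm_num)) fun R hR =>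
      hR.lt hρ ok6 chk6_3 (by decide +kernel) (cast_ne k p h3) fun k1 k2 =>
        (hρ.card_three (cast_ne k p h3) k1 k2).trans_lt (by norm_num)
  by_cases e5 : l = 5
  · subst e5
    exact key 1 8 (by norm_num) (by norm_num) low12_5
  by_cases e7 : l = 7
  · subst e7
    exact key 0 8 (by norm_num) (by norm_num) low12_7
  exact key 0 10 (fun k => by
    have := prime_cases hl (pow_one l ▸ k) (by norm_num)
    omega) (by norm_num) (low12 l e7 e5)

include p in
theorem ker8 {ι : A →* chevE8.SteinbergGroup F}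
    {f : A →* alternatingGroup (Fin 18)} (h : MinCov ι f) (hρ : IsRep alc8 ρ) :
    f.ker ≤ center A ∧ Nat.card f.ker ≤ 2 := by
  refine h.frat.central (by norm_num) fun l hl => ?_
  have := Fact.mk hl
  have := alternatingGroup.isSimpleGroup (α := Fin 18) (by simp)
  by_cases e : l = p
  · subst e
    exact fun L k1 k2 _ => (h.eq_bot (by simp) l (commutator_alternatingGroup_eq_top (by simp))
      k1 k2).le.trans bot_le
  have key : ∀ j N, ¬ l ^ (j + 1) ∣ 696729600 → 8 + j < N → Low.{u} 18 l N → ∀ L : Subgroup A,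
      L.Normal → IsPGroup l L → L ≤ f.ker → L ≤ center A := fun j N k1 k2 k3 =>
    h.frat.le_center (by norm_num) k3 fun R hR => (hR.relIndex_le (by simp) rootTableE8 p e
      (cardW8 ▸ k1) h.inj).trans_lt (Nat.pow_lt_pow_right hl.one_lt k2)
  by_cases e2 : l = 2
  · subst e2
    refine h.frat.le_center (by norm_num) (low18 2 (by norm_num) (by norm_num)) fun R hR =>
      hR.lt hρ ok8 chk8_2 (by decide +kernel) (cast_ne k p (Ne.symm e)) fun k1 k2 => ?_
    have := Int.le_of_dvd (by norm_num)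
      (hρ.card_two ok8 chk8_2 (by decide +kernel) (cast_ne k p (Ne.symm e)) k1 k2)
    omega
  by_cases e3 : l = 3
  · subst e3
    exact key 5 16 (by norm_num) (by norm_num) (low18 3 (by norm_num) (by norm_num))
  by_cases e5 : l = 13
  · subst e5
    exact key 0 10 (by norm_num) (by norm_num) low18_13
  refine key 2 12 (fun k => ?_) (by norm_num) (low18' l e5)
  rcases prime_cases hl ((dvd_pow_self l (by norm_num)).trans k) (by norm_num) with
    rfl | rfl | rfl | rfl <;> simp at e2 e3 k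

end Cfsg.Agent.Chev.AS
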