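import Mathlib
import Cfsg.Agent.Chev.ASKer
import Cfsg.Agent.Chev.ASClif

/-!
# Quadratic action of elements of order 3 in double covers of alternating groups
-/

set_option autoImplicit false

namespace Cfsg.Agent.Chev.AS

open Module Function Subgroup Equiv Equiv.Perm

variable {A : Type*} [Group A] {r : ℕ} {g : A →* Perm (Fin r)} {z : A}

/-- A central extension of the alternating group by the group generated by `z`. -/
structure Cen (g : A →* Perm (Fin r)) (z : A) : Prop where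
  surj : ∀ σ : Perm (Fin r), σ.sign = 1 → ∃ a, g a = σ
  cent : ∀ a, Commute z a
  sq : z * z = 1
  ker : ∀ a, g a = 1 → a = 1 ∨ a = z

theorem exists_cen [Finite A] {f : A →* alternatingGroup (Fin r)} (hf : Surjective f)
    (h : f.ker ≤ center A ∧ Nat.card f.ker ≤ 2) : ∃ z, Cen ((alternatingGroup _).subtype.comp f) z := by
  have h1 : ∀ σ : Perm (Fin r), σ.sign = 1 → ∃ a, ((alternatingGroup _).subtype.comp f) a = σ :=
    fun σ hσ => (hf ⟨σ, hσ⟩).imp fun a ha => congrArg Subtype.val ha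
  rcases subsingleton_or_nontrivial f.ker with h2 | h2
  · exact ⟨1, h1, Commute.one_left, mul_one 1, fun a ha => Or.inl
      (congrArg Subtype.val (h2.elim (⟨a, Subtype.ext ha⟩ : f.ker) 1))⟩
  have h3 : Nat.card f.ker = 2 := le_antisymm h.2 Finite.one_lt_card
  obtain ⟨z, hz, h4⟩ := (Nat.card_eq_two_iff' (1 : f.ker)).1 h3
  refine ⟨z, h1, fun a => (mem_center_iff.1 (h.1 z.2) a).symm, ?_, fun a ha => or_iff_not_imp_left.2
    fun e => congrArg Subtype.val (h4 ⟨a, Subtype.ext ha⟩ fun e' => e (congrArg Subtype.val e'))⟩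
  rw [← sq, ← h3]
  exact congrArg Subtype.val (pow_card_eq_one' (x := z))

theorem Cen.uniq (h : Cen g z) {x y : A} (hx : x ^ 3 = 1) (hy : y ^ 3 = 1) (e : g x = g y) : x = y := by
  rcases h.ker (x⁻¹ * y) (by simp [e]) with k | k
  · exact inv_mul_eq_one.1 k
  rw [inv_mul_eq_iff_eq_mul] at k
  rw [k, (h.cent x).symm.mul_pow, hx, one_mul, pow_succ, pow_two, h.sq, one_mul] at hy
  rw [k, hy, mul_one]

theorem Cen.comm (h : Cen g z) {x s : A} (hx : x ^ 3 = 1) (e : g s * g x = g x * g s) :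
    Commute s x :=
  mul_inv_eq_iff_eq_mul.1 (h.uniq (by rw [conj_pow, hx]; simp) hx (by simp [e]))

variable {k V : Type*} [Field k] [AddCommGroup V] [Module k V] (ρ : A →* End k V)

/-- The stabiliser of a subspace. -/
def stab (W : Submodule k V) : Submonoid A where
  carrier := {a | ∀ x ∈ W, ρ a x ∈ W}
  one_mem' := by simp
  mul_mem' ha hb x hx := by simpa using ha _ (hb x hx)

/-- The action of the stabiliser. -/
def res (W : Submodule k V) : stab ρ W →* End k W where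
  toFun a := (ρ a).restrict a.2
  map_one' := LinearMap.ext fun x => Subtype.ext (by simp)
  map_mul' a b := LinearMap.ext fun x => Subtype.ext (LinearMap.congr_fun (map_mul ρ a.1 b.1) x)

/-- The sum of the non-trivial eigenspaces. -/
def qn (T : End k V) : Submodule k V := (T * T + T + 1).ker

variable {ρ}

theorem Cen.quad (h : Cen g z) {W : Submodule k V} {x : A} {ι : Type*} {σ : ι → A}
    (hx : x ∈ stab ρ W) (hσ : ∀ i, σ i ∈ stab ρ W) (hσ' : ∀ i, (σ i)⁻¹ ∈ stab ρ W)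
    (hz : z ∈ stab ρ W) (hq : W ≤ qn (ρ x)) (H : ∀ i j, i ≠ j →
      (g (σ i) * g x * (g (σ i))⁻¹ * (g (σ j) * g x * (g (σ j))⁻¹)) ^ 2 = 1) :
    ∃ s : ι → End k W, (∀ i, s i * s i + s i + 1 = 0) ∧ (∀ i, Commute (res ρ W ⟨z, hz⟩) (s i)) ∧
      res ρ W ⟨z, hz⟩ * res ρ W ⟨z, hz⟩ = 1 ∧
      ∀ i j, i ≠ j → (s i * s j) ^ 2 = 1 ∨ (s i * s j) ^ 2 = res ρ W ⟨z, hz⟩ := by
  have h1 : res ρ W ⟨x, hx⟩ * res ρ W ⟨x, hx⟩ + res ρ W ⟨x, hx⟩ + 1 = 0 :=
    LinearMap.ext fun w => Subtype.ext (hq w.2)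
  refine ⟨fun i => res ρ W (⟨_, hσ i⟩ * ⟨x, hx⟩ * ⟨_, hσ' i⟩), fun i => ?_,
    fun i => Commute.map (x := (⟨z, hz⟩ : stab ρ W)) (Subtype.ext (h.cent _).eq) _, ?_, fun i j e => ?_⟩
  · have h2 := congrArg (res ρ W ⟨_, hσ i⟩ * · * res ρ W ⟨_, hσ' i⟩) h1
    simp only [mul_add, add_mul, mul_one, mul_zero, zero_mul, ← map_mul] at h2 ⊢
    rw [← h2, ← map_one (res ρ W)]
    congr 3 <;> ext <;> simp [mul_assoc]
  · rw [← map_mul, ← map_one (res ρ W)]
    exact congrArg _ (Subtype.ext h.sq)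
  · rw [← map_mul, ← map_pow, ← map_one (res ρ W)]
    exact (h.ker _ (by simpa using H i j e)).imp (fun e => congrArg _ (Subtype.ext e))
      fun e => congrArg _ (Subtype.ext e)

theorem mem_qn {T S : End k V} (h : Commute T S) {x : V} (hx : x ∈ qn T) : S x ∈ qn T := by
  rw [qn, LinearMap.mem_ker, ← End.mul_apply,
    (((h.mul_left h).add_left h).add_left (Commute.one_left S)).eq, End.mul_apply,
    LinearMap.mem_ker.1 hx, map_zero]

theorem mem_eig {T S : End k V} (h : Commute T S) {a : k} {x : V} (hx : x ∈ T.eigenspace a) :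
    S x ∈ T.eigenspace a := End.mem_eigenspace_iff.2 (by
  rw [← End.mul_apply, h.eq, End.mul_apply, End.mem_eigenspace_iff.1 hx, map_smul])

theorem mem_qn_iff {ψ : AddChar (ZMod 3) k} (hψ : Psi ψ) {T : End k V} {a : ZMod 3} {x : V}
    (h : T x = ψ a • x) : x ∈ qn T ↔ a ≠ 0 ∨ x = 0 := by
  have h1 : (T * T + T + 1) x = (ψ a * ψ a + ψ a + 1) • x := by simp [h, add_smul, smul_smul]
  rw [qn, LinearMap.mem_ker, h1, smul_eq_zero]
  refine or_congr_left ⟨?_, fun e => ?_⟩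
  · rintro e rfl
    exact hψ.ne (by simpa using (show (3 : k) = _ by norm_num).trans e)
  · have h2 : ψ a ^ 3 = 1 := by
      rw [← AddChar.map_nsmul_eq_pow, (by decide : ∀ a : ZMod 3, 3 • a = 0), AddChar.map_zero_eq_one]
    refine mul_left_cancel₀ (sub_ne_zero.2 fun e' : ψ a = 1 => e (hψ.inj (by simpa using e'))) ?_
    linear_combination h2

variable [FiniteDimensional k V]

theorem mu_ne_zero {q : ℕ} {ψ : AddChar (ZMod q) k} {ι : Type*} {c : ι → End k V} {χ : ι → ZMod q} :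
    mu ψ c χ ≠ 0 ↔ ∃ x ∈ J ψ c χ, x ≠ 0 := by
  rw [mu, ne_eq, Submodule.finrank_eq_zero, ← ne_eq, Submodule.ne_bot_iff]

variable [IsAlgClosed k]

theorem Fam.le_of {q : ℕ} [NeZero q] {ψ : AddChar (ZMod q) k} (hψ : Psi ψ) {ι : Type*} [Fintype ι]
    [DecidableEq ι] {c : ι → End k V} (h : Fam q c) {U W : Submodule k V}
    (hU : ∀ i, ∀ x ∈ U, c i x ∈ U) (hW : ∀ i, ∀ x ∈ W, c i x ∈ W)
    (H : ∀ χ, ∀ x ∈ U, x ∈ J ψ c χ → x ∈ W) : U ≤ W := by
  refine inf_eq_left.1 (Submodule.eq_of_le_of_finrank_eq inf_le_left ?_)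
  rw [h.finrank_eq hψ U hU, h.finrank_eq hψ (U ⊓ W) fun i x hx => ⟨hU i x hx.1, hW i x hx.2⟩]
  refine Finset.sum_congr rfl fun χ _ => ?_
  rw [le_antisymm (inf_le_inf_right _ inf_le_left) fun x hx => ⟨⟨hx.1, H χ x hx.1 hx.2⟩, hx.2⟩]

theorem Cen.exists_quad (h : Cen g z) {ψ : AddChar (ZMod 3) k} (hψ : Psi ψ) {m : ℕ} {c : Fin m → A}
    (h1 : ∀ i j, Commute (c i) (c j)) (h2 : ∀ i, c i ^ 3 = 1) {a : ℕ → ℕ}
    (ha : ∀ χ, mu ψ (fun i => ρ (c i)) χ = a (wt χ)) (h3 : ∀ w < m, m ≤ w + 2 → a w = 0)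
    (h4 : a m ≠ 0) {C : Fin m → Perm (Fin r)} (hC : ∀ i, g (c i) = C i) {ι : Type*} (i₀ : ι)
    {σ : ι → Perm (Fin r)} {b₀ : Fin m} {b : ι → Fin m}
    (H1 : ∀ i, (σ i).sign = 1 ∧ ∀ l, l ≠ b₀ → l ≠ b i → σ i * C l = C l * σ i)
    (H2 : ∀ i j, i ≠ j → (σ i * C b₀ * (σ i)⁻¹ * (σ j * C b₀ * (σ j)⁻¹)) ^ 2 = 1) :
    ∃ W : Submodule k V, W ≠ ⊥ ∧ ∃ (s : ι → End k W) (y : End k W), (z = 1 → y = 1) ∧
      (∀ i, s i * s i + s i + 1 = 0) ∧ (∀ i, Commute y (s i)) ∧ y * y = 1 ∧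
      ∀ i j, i ≠ j → (s i * s j) ^ 2 = 1 ∨ (s i * s j) ^ 2 = y := by
  have hF := fam_of ρ h1 h2
  let W := ⨅ l, qn (ρ (c l))
  have key : ∀ i s, (∀ l, l ≠ b₀ → l ≠ b i → Commute s (c l)) → s ∈ stab ρ W := fun i s hs x hx => by
    let U := ⨅ l, ⨅ (_ : l ≠ b₀), ⨅ (_ : l ≠ b i), qn (ρ (c l))
    refine hF.le_of hψ (U := U) (fun j y hy => ?_) (fun j y hy => ?_) (fun χ y hy hχ => ?_) ?_
    · simp only [U, Submodule.mem_iInf] at hy ⊢
      exact fun l e e' => mem_qn (hF.comm l j) (hy l e e')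
    · simp only [W, Submodule.mem_iInf] at hy ⊢
      exact fun l => mem_qn (hF.comm l j) (hy l)
    · by_cases h0 : y = 0
      · simp [h0]
      simp only [U, W, Submodule.mem_iInf, mem_qn_iff hψ (mem_J.1 hχ _), h0, or_false] at hy ⊢
      have k1 : m ≤ wt χ + 2 := by
        refine le_trans ?_ (add_le_add (Finset.card_le_card (s := Finset.univ \ {b₀, b i})
          fun l hl => by simp at hl; simp [hy l hl.1 hl.2]) (Finset.card_le_two (a := b₀) (b := b i)))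
        simp [Finset.card_sdiff_add_card]
      have k2 : Finset.univ.filter (χ · ≠ 0) = Finset.univ := Finset.eq_univ_of_card _ (le_antisymm
        (Finset.card_le_univ _) (not_lt.1 fun e => mu_ne_zero.2 ⟨y, hχ, h0⟩
          ((ha χ).trans (h3 _ (e.trans_eq (Fintype.card_fin m)) k1))))
      exact fun l => (Finset.mem_filter.1 (k2.ge (Finset.mem_univ l))).2
    · simp only [U, W, Submodule.mem_iInf] at hx ⊢
      exact fun l e e' => mem_qn ((hs l e e').symm.map ρ) (hx l)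
  choose s hs using fun i => h.surj _ (H1 i).1
  have k1 : ∀ i l, l ≠ b₀ → l ≠ b i → Commute (s i) (c l) := fun i l e e' =>
    h.comm (h2 l) (by rw [hs, hC, (H1 i).2 l e e'])
  have hz := key i₀ z fun l _ _ => h.cent _
  obtain ⟨x, hx, x0⟩ := mu_ne_zero.1 ((ha fun _ => 1).trans_ne (by simpa [wt] using h4))
  obtain ⟨t, ht⟩ := h.quad (key i₀ _ fun l _ _ => h1 b₀ l) (fun i => key i _ (k1 i))
    (fun i => key i _ fun l e e' => (k1 i l e e').inv_left) hz (iInf_le _ b₀) (by simpa [hs, hC] using H2)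
  refine ⟨W, (Submodule.ne_bot_iff _).2 ⟨x, (Submodule.mem_iInf _).2 fun l =>
    (mem_qn_iff hψ (mem_J.1 hx l)).2 (Or.inl one_ne_zero), x0⟩, t, _, ?_, ht⟩
  rintro rfl
  exact map_one _

end Cfsg.Agent.Chev.AS
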