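import Mathlib
import Cfsg.Agent.Chev.ASCen

/-!
# Alternating sections of E6 and E8
-/

set_option autoImplicit false

namespace Cfsg.Agent.Chev.AS

open Module Function Subgroup Equiv Equiv.Perm Cfsg.Lie AltSec

universe u

section

variable {k V : Type*} [Field k] [AddCommGroup V] [Module k V]

theorem six (h2 : ((2 : ℕ) : k) ≠ 0) (h3 : ((3 : ℕ) : k) ≠ 0) (x : End k V) (h : 6 * x = 0) : x = 0 := by
  refine (smul_eq_zero_iff_right (mul_ne_zero h2 h3)).1 ?_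
  rw [← Nat.cast_mul, Nat.cast_smul_eq_nsmul, nsmul_eq_mul]
  exact_mod_cast h

variable [IsAlgClosed k] [FiniteDimensional k V]

theorem pow_le_of_quad {W : Submodule k V} (hW : W ≠ ⊥) {n m : ℕ} {s : Fin n → End k W} {y : End k W}
    (h2 : ((2 : ℕ) : k) ≠ 0) (h3 : ((3 : ℕ) : k) ≠ 0) (hn : ((n + 2 : ℕ) : k) ≠ 0)
    (hm : 2 * m ≤ n ∧ 2 < n) (k1 : ∀ i, s i * s i + s i + 1 = 0) (k2 : ∀ i, Commute y (s i))
    (k3 : y * y = 1) (k4 : ∀ i j, i ≠ j → (s i * s j) ^ 2 = 1 ∨ (s i * s j) ^ 2 = y) :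
    2 ^ m ≤ finrank k V :=
  (Nat.le_of_dvd (Nat.pos_of_ne_zero (mt Submodule.finrank_eq_zero.1 hW)) (clif_odd s k1 (fun i j e => by
    obtain ⟨l, e1, e2⟩ := Fin.exists_ne_and_ne_of_two_lt i j hm.2
    exact quad_rel' (six h2 h3) (k1 i) (k1 j) (k1 l) k3 (k2 i) (k2 j) (k4 _ _ e) (k4 _ _ e1.symm)
      (k4 _ _ e2.symm)) (by exact_mod_cast h2) (by exact_mod_cast hn) hm.1)).trans W.finrank_le

theorem pow_le_of_two {W : Submodule k V} (hW : W ≠ ⊥) {s : Fin 16 → End k W} (h2 : (2 : k) = 0)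
    (k1 : ∀ i, s i * s i + s i + 1 = 0) (k4 : ∀ i j, i ≠ j → (s i * s j) ^ 2 = 1) :
    2 ^ 8 ≤ finrank k V :=
  (Nat.le_of_dvd (Nat.pos_of_ne_zero (mt Submodule.finrank_eq_zero.1 hW)) (clif_two s k1 (fun i j e =>
    quad_rel (k1 i) (k1 j) ((k4 i j e).trans (by
      rw [eq_neg_iff_add_eq_zero, ← two_smul k, h2, zero_smul]))) h2)).trans W.finrank_le

variable {A : Type*} [Group A] [Finite A] {ρ : A →* End k V}

theorem caseA {f : A →* alternatingGroup (Fin 12)} (hf : Surjective f) (hK : ¬ 3 ∣ Nat.card f.ker)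
    {z : A} (h : Cen ((alternatingGroup _).subtype.comp f) z) (hρ : IsRep alc6 ρ)
    (k2 : ((2 : ℕ) : k) ≠ 0) {ψ : AddChar (ZMod 3) k} (hψ : Psi ψ) {c : Fin 4 → A}
    (h1 : ∀ i, (f (c i) : Perm (Fin 12)) = fam34.c i) (h2 : ∀ i j, Commute (c i) (c j))
    (h3 : ∀ i, c i ^ 3 = 1) {a : ℕ → ℕ} (ha : ∀ χ, mu ψ (fun i => ρ (c i)) χ = a (wt χ))
    (a1 : a 1 = 0) (a3 : a 3 = 0) : a 2 = 0 := by
  by_contra a2
  have hF := fam_of ρ h2 h3
  let Y := (ρ (c 2)).eigenspace (ψ 1) ⊓ (ρ (c 3)).eigenspace (ψ 0)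
  have key : ∀ s, Commute s (c 2) → Commute s (c 3) → s ∈ stab ρ Y := fun s e e' x hx =>
    ⟨mem_eig (e.symm.map ρ) hx.1, mem_eig (e'.symm.map ρ) hx.2⟩
  have hq : Y ≤ qn (ρ (c 0 * c 1)) := hF.le_of hψ (fun i => key _ (h2 i 2) (h2 i 3))
    (fun i x => mem_qn (((h2 0 i).mul_left (h2 1 i)).map ρ)) fun χ x hx hχ => by
      rw [mem_qn_iff hψ (a := χ 0 + χ 1) (by
        rw [map_mul, End.mul_apply, mem_J.1 hχ, map_smul, mem_J.1 hχ, smul_smul,
          AddChar.map_add_eq_mul, mul_comm]), or_iff_not_imp_right]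
      intro x0
      have e1 := (ha χ).symm.trans_ne (mu_ne_zero.2 ⟨x, hχ, x0⟩)
      exact (by decide +kernel : ∀ χ : Fin 4 → ZMod 3, χ 2 = 1 → χ 3 = 0 → wt χ ≠ 1 → wt χ ≠ 3 →
        χ 0 + χ 1 ≠ 0) χ
        (hψ.inj (smul_left_injective k x0 ((mem_J.1 hχ 2).symm.trans (End.mem_eigenspace_iff.1 hx.1))))
        (hψ.inj (smul_left_injective k x0 ((mem_J.1 hχ 3).symm.trans (End.mem_eigenspace_iff.1 hx.2))))
        (fun e => e1 ((congrArg a e).trans a1)) fun e => e1 ((congrArg a e).trans a3)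
  let σ : Fin 3 → Perm (Fin 12) := ![1, c[1, 3] * c[2, 5], c[0, 4] * c[2, 5]]
  have H : ∀ i, (σ i).sign = 1 ∧ σ i * fam34.c 2 = fam34.c 2 * σ i ∧
    σ i * fam34.c 3 = fam34.c 3 * σ i := by decide +kernel
  choose s hs using fun i => h.surj _ (H i).1
  have k3 : ∀ i, Commute (s i) (c 2) := fun i => h.comm (h3 2) (by simpa [hs, h1] using (H i).2.1)
  have k4 : ∀ i, Commute (s i) (c 3) := fun i => h.comm (h3 3) (by simpa [hs, h1] using (H i).2.2)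
  have hz := key z (h.cent _) (h.cent _)
  obtain ⟨t, t1, t2, t3, t4⟩ := h.quad (key _ ((h2 0 2).mul_left (h2 1 2)) ((h2 0 3).mul_left (h2 1 3)))
    (fun i => key _ (k3 i) (k4 i)) (fun i => key _ (k3 i).inv_left (k4 i).inv_left) hz hq (by
      simp only [hs, map_mul, MonoidHom.comp_apply, coe_subtype, h1]
      decide +kernel)
  have t5 := quad_neg (six k2 hψ.ne) (t1 0) (t1 1) (t1 2) t3 (t2 0) (t2 1) (t4 _ _ (by decide))
    (t4 _ _ (by decide)) (t4 _ _ (by decide))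
  obtain ⟨x, hx, x0⟩ := mu_ne_zero.1 ((ha ![1, 0, 1, 0]).trans_ne a2)
  have e1 : ρ z x = -x := congrArg Subtype.val (LinearMap.congr_fun t5
    ⟨x, End.mem_eigenspace_iff.2 (mem_J.1 hx 2), End.mem_eigenspace_iff.2 (mem_J.1 hx 3)⟩)
  obtain ⟨φ, hφ⟩ := exists_psi k2
  have e2 : φ 1 = -1 := (mul_self_eq_one_iff.1 (by
    rw [← AddChar.map_add_eq_mul]; exact φ.map_zero_eq_one)).resolve_left fun e =>
      one_ne_zero (hφ.inj (e.trans φ.map_zero_eq_one.symm))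
  have e3 := hρ.rat ok6 chk6_2 (by decide +kernel) hφ ((sq z).trans h.sq) (fun e => x0 (by
    rw [e, map_one, End.one_apply, eq_neg_iff_add_eq_zero, ← two_smul k] at e1
    exact (smul_eq_zero_iff_right (by exact_mod_cast k2)).1 e1)) fun x hx => by
      rw [show x = 1 by revert x; decide]
  have e4 : ed φ (ρ z) 0 + ed φ (ρ z) 1 = _ := (Fin.sum_univ_two _).symm.trans
    (sum_ed hφ (g := ρ z) (by rw [← map_pow, sq, h.sq, map_one]))
  let ρ' := (res ρ ((ρ z).eigenspace (φ 1))).comp ((MonoidHom.id A).codRestrict _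
    fun a x => mem_eig ((h.cent a).map ρ))
  obtain ⟨c', k5, k6, k7, b, hb⟩ := fam34_ok.lift ρ' hf hK ψ
  obtain rfl : c = c' := funext fun i => h.uniq (h3 i) (k7 i) ((h1 i).trans (k5 i).symm)
  have e5 : ed φ (ρ z) 1 = _ :=
    (fam_of ρ' k6 k7).finrank_wt hψ hb (L := [1, 8, 24, 32, 16]) (by decide +kernel)
  have e6 : b 2 ≠ 0 := (hb ![1, 0, 1, 0]).symm.trans_ne (mu_ne_zero.2
    ⟨⟨x, End.mem_eigenspace_iff.2 (by simp [e1, e2])⟩, mem_J.2 fun i => Subtype.ext (mem_J.1 hx i),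
      fun e => x0 (congrArg Subtype.val e)⟩)
  rw [hρ.dim, show alc6.W.length = 27 by decide +kernel] at e4
  simp [Finset.sum_range_succ] at e3 e5
  omega

end

/-- Permutations moving the first 3-cycle to `(0 1 i)`. -/
def σ18 : Fin 16 → Perm (Fin 18) := ![1, c[2, 3] * c[4, 5], c[2, 4] * c[3, 5], c[2, 5] * c[3, 4],
  c[2, 6] * c[7, 8], c[2, 7] * c[6, 8], c[2, 8] * c[6, 7], c[2, 9] * c[10, 11], c[2, 10] * c[9, 11],
  c[2, 11] * c[9, 10], c[2, 12] * c[13, 14], c[2, 13] * c[12, 14], c[2, 14] * c[12, 13],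
  c[2, 15] * c[16, 17], c[2, 16] * c[15, 17], c[2, 17] * c[15, 16]]

theorem sig18 : (∀ i, (σ18 i).sign = 1 ∧ ∀ l, l ≠ 0 →
    l ≠ ![0, 1, 1, 1, 2, 2, 2, 3, 3, 3, 4, 4, 4, 5, 5, 5] i → σ18 i * fam36.c l = fam36.c l * σ18 i) ∧
    ∀ i j, i ≠ j → (σ18 i * fam36.c 0 * (σ18 i)⁻¹ * (σ18 j * fam36.c 0 * (σ18 j)⁻¹)) ^ 2 = 1 := by
  decide +kernel

theorem arith8 {a : ℕ → ℕ} {x y : ℕ}
    (e0 : 248 = ∑ w ∈ Finset.range (6 + 1), [1, 12, 60, 160, 240, 192, 64].getD w 0 * a w)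
    (e1 : x = ∑ w ∈ Finset.range (6 + 1), [1, 10, 40, 80, 80, 32, 0].getD w 0 * a w)
    (e2 : y = ∑ w ∈ Finset.range (6 + 1), [1, 8, 26, 48, 64, 64, 32].getD w 0 * a w)
    (k1 : x ∈ [134, 86, 80, 92]) (k2 : y ∈ [134, 86, 80, 92]) : a 4 = 0 ∧ a 5 = 0 ∧ a 6 ≠ 0 := by
  simp [Finset.sum_range_succ] at e0 e1 e2 k1 k2
  have h2 : a 2 ≤ 4 := by omega
  have h3 : a 3 ≤ 1 := by omega
  refine ⟨by omega, by omega, fun h => ?_⟩
  interval_cases a 2 <;> interval_cases a 3 <;> omega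

variable {F : Type u} [Field F] [Finite F] (p : ℕ) [hp : Fact p.Prime] [CharP F p]

theorem not_cov_E6_12 (h2 : p ≠ 2) (h3 : p ≠ 3) : ¬ Cov (chevE6.group F) 12 := fun h => by
  have := Fintype.ofFinite F
  have := Mult.finite_steinbergGroup (D := chevE6) (F := F) (by simp)
  obtain ⟨A, f, h⟩ := exists_minCov' (by simp) h
  obtain ⟨I, _, ρ, hρ⟩ := exists_rep6 (algebraMap F (AlgebraicClosure F))
  obtain ⟨ψ, hψ⟩ := exists_psi (cast_ne (AlgebraicClosure F) p h3)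
  have k2 := cast_ne (AlgebraicClosure F) p h2
  replace hρ := hρ.comp h.inj
  have hK := ker6 p h2 h3 h hρ
  have hK' : ¬ 3 ∣ Nat.card f.ker := Nat.not_dvd_of_pos_of_lt Nat.card_pos (by omega)
  obtain ⟨z, hz⟩ := exists_cen h.surj hK
  obtain ⟨c, k5, k6, k7, a, ha⟩ := fam34_ok.lift (ρ.comp A.subtype) h.surj hK' ψ
  have hF := fam_of (ρ.comp A.subtype) k6 k7
  have e0 := hF.finrank_wt hψ ha (L := [1, 8, 24, 32, 16]) (by decide +kernel)
  obtain ⟨r1, e1⟩ := hF.ed_one hψ ha 0 (L := [1, 6, 12, 8, 0]) (L' := [0, 1, 6, 12, 8])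
    (by decide +kernel)
  have k1 := hρ.prof_three hψ (k7 0) fun e => absurd
    (show fam34.c 0 = 1 by rw [← k5, e, map_one, Subgroup.coe_one]) (by decide +kernel)
  have e2 := hρ.dim.trans (show alc6.W.length = 27 by decide +kernel)
  rw [r1 2 (by decide), e1] at k1
  rw [e2] at e0
  simp [Finset.sum_range_succ] at e0 k1
  have k3 := caseA h.surj hK' hz hρ k2 hψ k5 k6 k7 ha
  obtain ⟨W, hW, s, y, -, t1, t2, t3, t4⟩ := hz.exists_quad hψ k6 k7 ha (fun w _ _ => by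
    obtain rfl | rfl : w = 2 ∨ w = 3 := by omega
    all_goals omega) (by omega) k5 0 (σ := ![1, c[2, 3] * c[4, 5], c[2, 4] * c[3, 5], c[2, 5] * c[3, 4],
      c[2, 6] * c[7, 8], c[2, 7] * c[6, 8], c[2, 8] * c[6, 7], c[2, 9] * c[10, 11], c[2, 10] * c[9, 11],
      c[2, 11] * c[9, 10]]) (b₀ := 0) (b := ![0, 1, 1, 1, 2, 2, 2, 3, 3, 3]) (by decide +kernel)
      (by decide +kernel)
  have := pow_le_of_quad hW (m := 5) k2 hψ.ne (by
    exact_mod_cast mul_ne_zero (mul_ne_zero k2 k2) hψ.ne) (by norm_num) t1 t2 t3 t4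
  omega

theorem le_E6 {r : ℕ} (h : Cov (chevE6.group F) r) :
    r ≤ 11 + (if p = 2 ∨ p = 3 ∨ p = 5 then 1 else 0) := by
  by_contra hr
  split_ifs at hr with h7
  · exact not_cov_E6_13 p (by omega) (h.mono (by omega))
  · exact not_cov_E6_12 p (by omega) (by omega) (h.mono (by omega))

theorem not_cov_E8_18 (h3 : p ≠ 3) : ¬ Cov (chevE8.group F) 18 := fun h => by
  have := Fintype.ofFinite F
  have := Mult.finite_steinbergGroup (D := chevE8) (F := F) (by simp)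
  obtain ⟨A, f, h⟩ := exists_minCov' (by simp) h
  obtain ⟨I, _, ρ, hρ⟩ := exists_rep8 (algebraMap F (AlgebraicClosure F))
  obtain ⟨ψ, hψ⟩ := exists_psi (cast_ne (AlgebraicClosure F) p h3)
  replace hρ := hρ.comp h.inj
  have hK := ker8 p h hρ
  have hK' : ¬ 3 ∣ Nat.card f.ker := Nat.not_dvd_of_pos_of_lt Nat.card_pos (by omega)
  obtain ⟨z, hz⟩ := exists_cen h.surj hK
  obtain ⟨c, k5, k6, k7, a, ha⟩ := fam36_ok.lift (ρ.comp A.subtype) h.surj hK' ψ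
  have hF := fam_of (ρ.comp A.subtype) k6 k7
  have e0 := hF.finrank_wt hψ ha (L := [1, 12, 60, 160, 240, 192, 64]) (by decide +kernel)
  obtain ⟨r1, e1⟩ := hF.ed_one hψ ha 0 (L := [1, 10, 40, 80, 80, 32, 0])
    (L' := [0, 1, 10, 40, 80, 80, 32]) (by decide +kernel)
  obtain ⟨r2, e2⟩ := hF.ed_two hψ ha 0 1 (L := [1, 8, 26, 48, 64, 64, 32])
    (L' := [0, 2, 17, 56, 88, 64, 16]) (by decide +kernel)
  rw [← map_mul] at r2 e2
  have k1 := hρ.rat ok8 chk8_3 (by decide +kernel) hψ (k7 0) (fun e => absurd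
    (show fam36.c 0 = 1 by rw [← k5, e, map_one, Subgroup.coe_one]) (by decide +kernel)) r1
  have k2 := hρ.rat ok8 chk8_3 (by decide +kernel) hψ (by rw [(k6 0 1).mul_pow, k7, k7, mul_one])
    (fun e => absurd (show fam36.c 0 * fam36.c 1 = 1 by
      rw [← k5, ← k5, ← Subgroup.coe_mul, ← map_mul, e, map_one, Subgroup.coe_one])
        (by decide +kernel)) r2
  have e3 := hρ.dim.trans (show alc8.W.length = 248 by decide +kernel)
  have k0 := arith8 (e3.symm.trans e0) e1 e2 k1 k2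
  obtain ⟨W, hW, s, y, t0, t1, t2, t3, t4⟩ := hz.exists_quad hψ k6 k7 ha (fun w _ _ => by
    obtain rfl | rfl : w = 4 ∨ w = 5 := by omega
    exacts [k0.1, k0.2.1]) k0.2.2 k5 0 sig18.1 sig18.2
  by_cases h2 : p = 2
  · subst h2
    have := alternatingGroup.isSimpleGroup (α := Fin 18) (by simp)
    have k3 : zpowers z = ⊥ := h.eq_bot (by simp) 2 (commutator_alternatingGroup_eq_top (by simp))
      ⟨by
        rintro _ ⟨n, rfl⟩ a
        exact ⟨n, (mul_inv_eq_iff_eq_mul.2 ((hz.cent a).zpow_left n).eq.symm).symm⟩⟩ (by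
        rintro ⟨_, n, rfl⟩
        exact ⟨1, Subtype.ext (show (z ^ n) ^ 2 = 1 by rw [sq, ← (Commute.refl z).mul_zpow, hz.sq, one_zpow])⟩)
    have := pow_le_of_two hW (CharP.cast_eq_zero _ 2) t1 fun i j e =>
      (t4 i j e).elim id fun e => e.trans (t0 (zpowers_eq_bot.1 k3))
    omega
  have k3 := cast_ne (AlgebraicClosure F) p h2
  have := pow_le_of_quad hW (m := 8) k3 hψ.ne (by
    exact_mod_cast mul_ne_zero (mul_ne_zero k3 hψ.ne) hψ.ne) (by norm_num) t1 t2 t3 t4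
  omega

theorem le_E8 {r : ℕ} (h : Cov (chevE8.group F) r) : r ≤ 17 + (if p = 3 then 1 else 0) := by
  by_contra hr
  split_ifs at hr with h7
  · exact not_cov_E8_19 p (by omega) (h.mono (by omega))
  · exact not_cov_E8_18 p h7 (h.mono (by omega))

end Cfsg.Agent.Chev.AS
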