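import Mathlib
import Cfsg.Agent.Chev.CoxCheck

/-!
Element orders in small Weyl groups: dihedral groups, and a trichotomy for the elements of `W(F₄)`.
-/

set_option autoImplicit false

namespace Cfsg.Agent.AltSec

open Cfsg.Agent.Chev Subgroup

/-- In a group generated by two involutions with product of order dividing `2 * m`, all elements have
order dividing `2 * m`. -/
theorem pow_of_mem_closure {W : Type*} [Group W] {a b : W} (ha : a * a = 1) (hb : b * b = 1) {m : ℕ}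
    (hm : (a * b) ^ (2 * m) = 1) {w : W} (hw : w ∈ closure {a, b}) : w ^ (2 * m) = 1 := by
  have ha' : a⁻¹ = a := inv_eq_of_mul_eq_one_right ha
  have hb' : b⁻¹ = b := inv_eq_of_mul_eq_one_right hb
  have hc : a * (a * b) * a⁻¹ = (a * b)⁻¹ := by
    rw [← mul_assoc, ha, one_mul, mul_inv_rev, ha', hb']
  have key : ∃ k : ℤ, w = (a * b) ^ k ∨ w = a * (a * b) ^ k := by
    have step : ∀ x ∈ ({a, b} : Set W), ∀ y, (∃ k : ℤ, y = (a * b) ^ k ∨ y = a * (a * b) ^ k) →
        ∃ k : ℤ, x * y = (a * b) ^ k ∨ x * y = a * (a * b) ^ k := by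
      rintro x (rfl | rfl) y ⟨k, rfl | rfl⟩
      · exact ⟨k, Or.inr rfl⟩
      · exact ⟨k, Or.inl (by rw [← mul_assoc, ha, one_mul])⟩
      · exact ⟨1 + k, Or.inr (by rw [zpow_add, zpow_one, ← mul_assoc, ← mul_assoc, ha, one_mul])⟩
      · exact ⟨-1 + k, Or.inl (by rw [zpow_add, zpow_neg, zpow_one, mul_inv_rev, ha', hb', mul_assoc])⟩
    induction hw using closure_induction_left with
    | one => exact ⟨0, Or.inl (by simp)⟩
    | mul_left x hx y _ ih => exact step x hx y ih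
    | inv_mul_cancel x hx y _ ih =>
      have : x⁻¹ = x := by
        rcases hx with rfl | rfl
        exacts [ha', hb']
      rw [this]
      exact step x hx y ih
  obtain ⟨k, rfl | rfl⟩ := key
  · rw [← zpow_natCast, ← zpow_mul, mul_comm k, zpow_mul, zpow_natCast, hm, one_zpow]
  · have : (a * (a * b) ^ k) ^ 2 = 1 := by
      have h1 : a * (a * b) ^ k * a⁻¹ = ((a * b) ^ k)⁻¹ := by
        rw [← conj_zpow, hc, inv_zpow]
      rw [ha'] at h1
      rw [sq, ← mul_assoc, h1, inv_mul_cancel]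
    rw [pow_mul, this, one_pow]

/-- Integral vectors of length four. -/
abbrev V4 : Type := ℤ × ℤ × ℤ × ℤ

/-- A matrix, given by its columns. -/
abbrev M4 : Type := V4 × V4 × V4 × V4

/-- The short roots of `F₄`. -/
def shortF4 : List V4 :=
  [(-2, -3, -2, -1), (-1, -3, -2, -1), (-1, -2, -2, -1), (-1, -2, -1, -1), (-1, -2, -1, 0), (-1, -1, -1, -1),
   (-1, -1, -1, 0), (-1, -1, 0, 0), (-1, 0, 0, 0), (0, -1, -1, -1), (0, -1, -1, 0), (0, -1, 0, 0),
   (0, 1, 0, 0), (0, 1, 1, 0), (0, 1, 1, 1), (1, 0, 0, 0), (1, 1, 0, 0), (1, 1, 1, 0), (1, 1, 1, 1),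
   (1, 2, 1, 0), (1, 2, 1, 1), (1, 2, 2, 1), (1, 3, 2, 1), (2, 3, 2, 1)]

/-- The long roots of `F₄`. -/
def longF4 : List V4 :=
  [(-2, -4, -3, -2), (-2, -4, -3, -1), (-2, -4, -2, -1), (-2, -2, -2, -1), (-2, -2, -1, -1), (-2, -2, -1, 0),
   (0, -2, -2, -1), (0, -2, -1, -1), (0, -2, -1, 0), (0, 0, -1, -1), (0, 0, -1, 0), (0, 0, 0, -1),
   (0, 0, 0, 1), (0, 0, 1, 0), (0, 0, 1, 1), (0, 2, 1, 0), (0, 2, 1, 1), (0, 2, 2, 1), (2, 2, 1, 0),
   (2, 2, 1, 1), (2, 2, 2, 1), (2, 4, 2, 1), (2, 4, 3, 1), (2, 4, 3, 2)]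

/-- The invariant form. -/
def bf (u v : V4) : ℤ :=
  u.1 * (2 * v.1 - v.2.1) + u.2.1 * (2 * v.2.1 - v.1 - 2 * v.2.2.1) +
    u.2.2.1 * (4 * v.2.2.1 - 2 * v.2.1 - 2 * v.2.2.2) + u.2.2.2 * (4 * v.2.2.2 - 2 * v.2.2.1)

/-- The simple reflections. -/
def sr (i : Fin 4) (v : V4) : V4 :=
  ![(v.2.1 - v.1, v.2.1, v.2.2.1, v.2.2.2), (v.1, v.1 - v.2.1 + 2 * v.2.2.1, v.2.2.1, v.2.2.2),
    (v.1, v.2.1, v.2.1 - v.2.2.1 + v.2.2.2, v.2.2.2), (v.1, v.2.1, v.2.2.1, v.2.2.1 - v.2.2.2)] i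

/-- Matrix times vector. -/
def ap (m : M4) (v : V4) : V4 :=
  (v.1 * m.1.1 + v.2.1 * m.2.1.1 + v.2.2.1 * m.2.2.1.1 + v.2.2.2 * m.2.2.2.1,
   v.1 * m.1.2.1 + v.2.1 * m.2.1.2.1 + v.2.2.1 * m.2.2.1.2.1 + v.2.2.2 * m.2.2.2.2.1,
   v.1 * m.1.2.2.1 + v.2.1 * m.2.1.2.2.1 + v.2.2.1 * m.2.2.1.2.2.1 + v.2.2.2 * m.2.2.2.2.2.1,
   v.1 * m.1.2.2.2 + v.2.1 * m.2.1.2.2.2 + v.2.2.1 * m.2.2.1.2.2.2 + v.2.2.2 * m.2.2.2.2.2.2)

/-- Matrix product. -/
def mm (m n : M4) : M4 := (ap m n.1, ap m n.2.1, ap m n.2.2.1, ap m n.2.2.2)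

/-- The identity matrix. -/
def oneM : M4 := ((1, 0, 0, 0), (0, 1, 0, 0), (0, 0, 1, 0), (0, 0, 0, 1))

/-- The trichotomy for one matrix, in terms of its second and fourth powers. -/
def tri (m2 m4 : M4) : Bool := decide (mm m4 m2 = oneM) || decide (mm m4 m4 = oneM) || decide (m4 + oneM = m2)

theorem check_tri : (shortF4.all fun a => shortF4.all fun b => bf a b != -1 || longF4.all fun c =>
    bf a c != 0 || bf b c != -2 || longF4.all fun d => bf a d != 0 || bf b d != 0 || bf c d != -2 ||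
      tri (mm (a, b, c, d) (a, b, c, d)) (mm (mm (a, b, c, d) (a, b, c, d)) (mm (a, b, c, d) (a, b, c, d)))) =
      true := by
  decide +kernel

theorem sr_mem : ∀ i : Fin 4, (∀ v ∈ shortF4, sr i v ∈ shortF4) ∧ ∀ v ∈ longF4, sr i v ∈ longF4 := by
  decide +kernel

theorem bf_sr (i : Fin 4) (u v : V4) : bf (sr i u) (sr i v) = bf u v := by
  fin_cases i <;> simp [bf, sr] <;> ring

/-- Coordinates. -/
def toV (v : Fin 4 → ℤ) : V4 := (v 0, v 1, v 2, v 3)

theorem toV_injective : Function.Injective toV := fun u v h => by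
  simp only [toV, Prod.mk.injEq] at h
  funext i
  fin_cases i
  exacts [h.1, h.2.1, h.2.2.1, h.2.2.2]

theorem toV_srefl (i : Fin 4) (v : Fin 4 → ℤ) : toV (srefl (amat 4 cartanF4) i v) = sr i (toV v) := by
  fin_cases i <;>
    simp [toV, sr, srefl_apply, scoroot_apply, Fin.sum_univ_four, amat, aget, cartanF4, sroot] <;> ring

/-- The matrix of an endomorphism. -/
def toM (f : Module.End ℤ (Fin 4 → ℤ)) : M4 :=
  (toV (f (sroot 0)), toV (f (sroot 1)), toV (f (sroot 2)), toV (f (sroot 3)))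

theorem toV_apply (f : Module.End ℤ (Fin 4 → ℤ)) (v : Fin 4 → ℤ) : toV (f v) = ap (toM f) (toV v) := by
  conv_lhs => rw [eq_sum_sroot v]
  simp only [map_sum, map_zsmul]
  simp [toV, toM, ap, Fin.sum_univ_four]

theorem toM_mul (f g : Module.End ℤ (Fin 4 → ℤ)) : toM (f * g) = mm (toM f) (toM g) := by
  rw [toM]
  simp only [Module.End.mul_apply, toV_apply f]
  rfl

theorem toM_one : toM 1 = oneM := by
  simp [toM, oneM, toV, sroot]

theorem toM_add (f g : Module.End ℤ (Fin 4 → ℤ)) : toM (f + g) = toM f + toM g := by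
  simp [toM, toV]

theorem toM_injective : Function.Injective toM := fun f g h =>
  LinearMap.ext fun v => toV_injective (by rw [toV_apply, toV_apply, h])

/-- Every element `w` of `W(F₄)` has `w ^ 8 = 1`, `w ^ 6 = 1`, or satisfies `w ^ 4 + 1 = w ^ 2` in the
reflection representation. -/
theorem trichotomyF4 {W : Type*} [Group W] {M : CoxeterMatrix (Fin 4)} (cs : CoxeterSystem M W)
    {A : Fin 4 → Fin 4 → ℤ} (h : IsCartanFor M A) (e : A = amat 4 cartanF4) (w : W) :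
    w ^ 8 = 1 ∨ w ^ 6 = 1 ∨ ∀ v, geomRep cs h (w ^ 4) v + v = geomRep cs h (w ^ 2) v := by
  subst e
  have key : ∀ ω : List (Fin 4), (∀ v, toV v ∈ shortF4 → toV (geomRep cs h (cs.wordProd ω) v) ∈ shortF4) ∧
      (∀ v, toV v ∈ longF4 → toV (geomRep cs h (cs.wordProd ω) v) ∈ longF4) ∧
      ∀ u v, bf (toV (geomRep cs h (cs.wordProd ω) u)) (toV (geomRep cs h (cs.wordProd ω) v)) =
        bf (toV u) (toV v) := by
    intro ω
    induction ω with
    | nil => simp
    | cons i ω ih =>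
      simp only [geomRep_wordProd_cons, toV_srefl, bf_sr]
      exact ⟨fun v hv => (sr_mem i).1 _ (ih.1 v hv), fun v hv => (sr_mem i).2 _ (ih.2.1 v hv), ih.2.2⟩
  obtain ⟨ω, rfl⟩ := cs.wordProd_surjective w
  obtain ⟨h1, h2, h3⟩ := key ω
  set f := geomRep cs h (cs.wordProd ω) with hf
  have c := check_tri
  simp only [List.all_eq_true, Bool.or_eq_true, bne_iff_ne, ne_eq] at c
  have c1 := c _ (h1 (sroot 0) (by decide)) _ (h1 (sroot 1) (by decide))
  rw [h3] at c1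
  have c2 := c1.resolve_left (by decide) _ (h2 (sroot 2) (by decide))
  rw [h3, h3] at c2
  have c3 := c2.resolve_left (by decide) _ (h2 (sroot 3) (by decide))
  rw [h3, h3, h3] at c3
  have c4 := c3.resolve_left (by decide)
  change tri (mm (toM f) (toM f)) (mm (mm (toM f) (toM f)) (mm (toM f) (toM f))) = true at c4
  simp only [tri, ← toM_mul, ← toM_one, ← toM_add, toM_injective.eq_iff, Bool.or_eq_true,
    decide_eq_true_eq] at c4
  rcases c4 with (c4 | c4) | c4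
  · refine Or.inr (Or.inl (geomRep_injective cs h ?_))
    rw [map_pow, map_one, ← hf, ← c4]
    simp only [pow_succ, pow_zero, one_mul, mul_assoc]
  · refine Or.inl (geomRep_injective cs h ?_)
    rw [map_pow, map_one, ← hf, ← c4]
    simp only [pow_succ, pow_zero, one_mul, mul_assoc]
  · refine Or.inr (Or.inr fun v => ?_)
    have := LinearMap.congr_fun c4 v
    rw [map_pow, map_pow, ← hf]
    simpa only [pow_succ, pow_zero, one_mul, mul_assoc, LinearMap.add_apply, Module.End.one_apply] using this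

end Cfsg.Agent.AltSec
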