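import Mathlib
import Cfsg.Agent.Chev.AltSec
import Cfsg.Agent.Chev.AltSecW
import Cfsg.Agent.Chev.Aut
import Cfsg.Agent.Chev.TwistPres
import Cfsg.Agent.Chev.TwistD4F
import Cfsg.Agent.Chev.TwistF4F
import Cfsg.Agent.S1059
import Cfsg.Agent.S1062

/-!
Alternating sections of `G₂(q)`, `F₄(q)`, `³D₄(q)` and `²F₄(q)`.
-/

set_option autoImplicit false

namespace Cfsg.Agent.AltSec

open Cfsg.Agent.Chev Cfsg.Lie Subgroup Function

section Abstract

variable {B : Type*} [Fintype B] [DecidableEq B] {W : Type*} [Group W] {M : CoxeterMatrix B}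
  {A : B → B → ℤ} {G : Type*} [Group G] {Φ : Type*} {cs : CoxeterSystem M W} {hA : IsCartanFor M A}

theorem torD_comap [Finite W] (R : RootBN G Φ cs hA) (hc : ∀ h ∈ R.H, ∀ h' ∈ R.H, h * h' = h' * h)
    {T' : Type*} [Group T'] (j : T' →* G) (hj : Injective j)
    (hb : ∀ g : T', ∃ u ∈ R.U, ∃ n : T', j n ∈ R.N ∧ ∃ u' ∈ R.U, j g = u * j n * u') :
    TorD (R.H.comap j) (R.N.comap j) where
  comm a ha b hb := hj (by rw [map_mul, map_mul]; exact hc _ ha _ hb)
  le := comap_mono R.H_le_N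
  conj n hn h hh := by
    have := R.conj_mem_H ⟨_, hn⟩ hh
    simpa only [mem_comap, map_mul, map_inv] using this
  fus g := by
    obtain ⟨u, hu, n, hn, u', hu', e⟩ := hb g
    refine ⟨n, hn, fun h hh hh' => hj ?_⟩
    simp only [mem_comap, map_mul, map_inv] at hh hh' ⊢
    generalize e' : j g * j h * (j g)⁻¹ = k at hh'
    have h1 := R.conj_mem_U_of_H (inv_mem hh) hu'
    have h2 := R.conj_mem_U_of_H hh' hu
    have h3 := R.eq_of_U_mul_N_mul_U (n := ⟨j n * j h, mul_mem hn (R.H_le_N hh)⟩)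
      (n' := ⟨k * j n, mul_mem (R.H_le_N hh') hn⟩) (mul_mem (inv_mem h2) hu) (mul_mem h1 (inv_mem hu'))
      (by simp only [← e', e]; group)
    have h4 : k * j n = j n * j h := congrArg Subtype.val h3
    rw [← h4, mul_inv_cancel_right]

theorem torD_rootBN [Finite W] (R : RootBN G Φ cs hA) (hc : ∀ h ∈ R.H, ∀ h' ∈ R.H, h * h' = h' * h) :
    TorD R.H R.N :=
  torD_comap R hc (MonoidHom.id G) injective_id fun g => by
    obtain ⟨b, hb, n, u', hu', e⟩ := R.bruhat g
    obtain ⟨u, hu, h, hh, rfl⟩ := R.mem_Bor.1 hb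
    exact ⟨u, hu, h * n, mul_mem (R.H_le_N hh) n.2, u', R.Uw_le_U _ hu', by simp [e, mul_assoc]⟩

theorem pow_mem_H (R : RootBN G Φ cs hA) {n : G} (hn : n ∈ R.N) {e : ℕ} (h : R.π ⟨n, hn⟩ ^ e = 1) :
    n ^ e ∈ R.H :=
  (R.π_eq_one_iff (⟨n, hn⟩ ^ e)).1 (by rw [map_pow, h])

theorem relIndex_rootBN (R : RootBN G Φ cs hA) : R.H.relIndex R.N = Nat.card W := by
  have : R.H.subgroupOf R.N = R.π.ker := by
    ext n
    rw [mem_subgroupOf, MonoidHom.mem_ker, R.π_eq_one_iff]
  rw [relIndex, this, index_ker, MonoidHom.range_eq_top.2 R.π_surj, card_top]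

variable [Finite W] {R : RootBN G Φ cs hA} {ι : Type*} (D : TwistData R ι) {T' : Type*} [Group T']
  (j : T' →* G) (hj : Injective j) (hr : j.range = D.T)

include hj hr in
theorem torD_twist (hc : ∀ h ∈ R.H, ∀ h' ∈ R.H, h * h' = h' * h) : TorD (R.H.comap j) (R.N.comap j) :=
  torD_comap R hc j hj fun g => by
    obtain ⟨b, hb, hbT, n, hn, u', hu', -, e⟩ := D.bruhat_T (D.j_mem j hr g)
    obtain ⟨u, hu, -, h, hh, hT, rfl⟩ := D.mem_Bor_T hb hbT
    obtain ⟨m, hm⟩ := D.exists_j j hr (mul_mem hT hn)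
    exact ⟨u, hu, m, hm ▸ mul_mem (R.H_le_N hh) n.2, u', R.Uw_le_U _ hu', by simp [e, hm, mul_assoc]⟩

include hj hr in
theorem relIndex_twist {a b : ι} (hab : ∀ i, i = a ∨ i = b) :
    (R.H.comap j).relIndex (R.N.comap j) = 2 * orderOf (D.F.wJ a * D.F.wJ b) := by
  rw [← D.card_weyl_dihedral j hj hr hab, ← R.Bor_inf_N, comap_inf]
  rfl

omit [Finite W] in
include hr in
theorem pow_mem_twist {a b : ι} (hab : ∀ i, i = a ∨ i = b) {m : ℕ}
    (hm : orderOf (D.F.wJ a * D.F.wJ b) = 2 * m) {n : T'} (hn : n ∈ R.N.comap j) :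
    n ^ (2 * m) ∈ R.H.comap j := by
  rw [mem_comap, map_pow]
  refine pow_mem_H R hn (pow_of_mem_closure (D.F.wJ_mul_self a) (D.F.wJ_mul_self b)
    (hm ▸ pow_orderOf_eq_one _) ?_)
  have := D.F.mem_closure_of_fixed hA (D.τ_π ⟨_, hn⟩ (D.σ_eq (D.j_mem j hr n)))
  refine closure_mono ?_ this
  rintro _ ⟨i, rfl⟩
  rcases hab i with rfl | rfl <;> simp

end Abstract

section Tor

variable {K : Type*} [Field K] {G : Type*} [Group G] {D : ChevalleyDatum} {T : RootTable D} {x : ℕ → K → G}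
  (S : ChevSys T x)

theorem tor_injective (h : Nat.card {c : Fin D.rank → Kˣ // ∀ j, ∏ i, c i ^ cm D i j = 1} = 1) :
    Injective S.tor := by
  refine (injective_iff_map_eq_one _).2 fun c hc => ?_
  have := (Nat.card_eq_one_iff_unique.1 h).1
  exact congrArg Subtype.val (this.elim ⟨c, S.tor_eq_one_iff.1 hc⟩ ⟨1, by simp⟩)

theorem card_H [Finite K] (h : Injective S.tor) : Nat.card S.R.H = (Nat.card K - 1) ^ D.rank := by
  rw [← S.range_tor, ← Nat.card_congr (MonoidHom.ofInjective h).toEquiv, Nat.card_fun, Nat.card_units]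
  simp

/-- Conjugating a torus element by an element of `N`. -/
theorem conj_tor_conj (n : S.R.N) (c : Fin D.rank → Kˣ) {r : ℕ} (hr : r < 2 * T.N) (t : K) :
    (n * S.tor c * (n : G)⁻¹) * x r t * (n * S.tor c * (n : G)⁻¹)⁻¹ =
      x r ((∏ j : Fin D.rank, chi D (D.simple j) c ^ T.rep (S.R.π n)⁻¹ (T.vec r) j : Kˣ) * t) := by
  have hr' := T.act_lt (S.R.π n)⁻¹ hr
  obtain ⟨a, ha, e⟩ := S.conj_x n hr'
  rw [T.act_act_inv] at e
  obtain ⟨t, rfl⟩ : ∃ u, t = a * u := ⟨a⁻¹ * t, by rw [mul_inv_cancel_left₀ ha]⟩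
  rw [← T.vec_act _ hr, ← T.chi_eq hr', mul_left_comm, ← e, ← e, ← S.tor_conj _ hr']
  group

theorem conj_tor_rel (n : S.R.N) (h : ∀ v, T.rep ((S.R.π n)⁻¹ ^ 4) v + v = T.rep ((S.R.π n)⁻¹ ^ 2) v)
    {g : G} (hg : g ∈ S.R.H) : (n : G) ^ 4 * g * ((n : G) ^ 4)⁻¹ * g = (n : G) ^ 2 * g * ((n : G) ^ 2)⁻¹ := by
  obtain ⟨c, rfl⟩ := S.exists_tor hg
  refine S.eq_of_conj fun r hr t => ?_
  have h4 := conj_tor_conj S (n ^ 4) c hr
  have h2 := conj_tor_conj S (n ^ 2) c hr
  simp only [SubmonoidClass.coe_pow, map_pow, ← inv_pow] at h4 h2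
  simp only [← inv_pow, map_pow] at h ⊢
  rw [h2, ← h, mul_inv_rev (_ * _ * _), mul_assoc _ (S.tor c), mul_assoc, ← mul_assoc _ (S.tor c)⁻¹,
    S.tor_conj _ hr, ← mul_assoc, h4, T.chi_eq hr, ← mul_assoc, ← Units.val_mul, ← Finset.prod_mul_distrib]
  simp only [Pi.add_apply, zpow_add]

end Tor

theorem sq_eq_one_units {K : Type*} [Field K] {a : Kˣ} (h : a ^ 2 = 1) :
    ∃ b : Bool, a = if b then 1 else -1 := by
  have : (a : K) ^ 2 = 1 := by rw [← Units.val_pow_eq_pow_val, h, Units.val_one]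
  rcases mul_self_eq_one_iff.1 ((sq _).symm.trans this) with h | h
  · exact ⟨true, Units.ext h⟩
  · exact ⟨false, Units.ext h⟩

theorem ncard_le_four {G G' : Type*} {s : Set G} (j : G → G') (hj : Injective j) (f : Bool × Bool → G')
    (h : ∀ g ∈ s, j g ∈ Set.range f) : s.ncard ≤ 4 := by
  rw [← Set.ncard_image_of_injective s hj]
  refine (Set.ncard_le_ncard (t := Set.range f) (Set.image_subset_iff.2 h) (Set.finite_range f)).trans ?_
  rw [← Set.image_univ]
  refine (Set.ncard_image_le (Set.toFinite _)).trans ?_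
  simp [Set.ncard_univ]

theorem pow_sub_one_eq {q : ℕ} (hq : 1 ≤ q) (n : ℕ) : q ^ n - 1 = (q - 1) * ∑ i ∈ Finset.range n, q ^ i := by
  obtain ⟨k, rfl⟩ := Nat.exists_eq_add_of_le' hq
  rw [← geom_sum_mul_add, add_tsub_cancel_right, add_tsub_cancel_right, mul_comm]

theorem index_eq {G : Type*} [Group G] [Finite G] {H : Subgroup G} {a b : ℕ} (h1 : Nat.card H = a)
    (h2 : Nat.card G = a * b) : H.index = b :=
  Nat.eq_of_mul_eq_mul_left Nat.card_pos (by rw [H.card_mul_index, h2, h1])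

theorem not_dvd_of_cast {m n : ℕ} (h : (n : ZMod m) ≠ 0) : ¬ m ∣ n :=
  fun h' => h ((ZMod.natCast_eq_zero_iff _ _).2 h')

theorem card_cast_ne {F : Type*} [Field F] [Finite F] (p : ℕ) [Fact p.Prime] [CharP F p] {l : ℕ}
    [hl : Fact l.Prime] (h : p ≠ l) : ((Nat.card F : ℕ) : ZMod l) ≠ 0 := by
  have := Fintype.ofFinite F
  obtain ⟨n, hp, e⟩ := FiniteField.card F p
  rw [Nat.card_eq_fintype_card, e, Ne, ZMod.natCast_eq_zero_iff]
  exact fun h' => h ((Nat.prime_dvd_prime_iff_eq hl.1 hp).1 (hl.1.dvd_of_dvd_pow h')).symm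

theorem five_pow_cast (n : ℕ) : ((5 ^ n : ℕ) : ZMod 8) = 1 ∨ ((5 ^ n : ℕ) : ZMod 8) = 5 := by
  induction n with
  | zero => exact Or.inl rfl
  | succ n ih =>
    rw [pow_succ, Nat.cast_mul]
    rcases ih with h | h <;> rw [h] <;> decide

section G2

variable (F : Type*) [Field F] [Finite F]

/-- The structure data of `G₂(F)`. -/
noncomputable abbrev sysG2 : ChevSys rootTableG2 (xC chevG2 F) := sysC F (by simp) rootTableG2

theorem finite_W_G2 : Finite rootTableG2.W :=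
  Nat.finite_of_card_ne_zero (by rw [cardG2 rootTableG2.cs]; norm_num)

omit [Finite F] in
theorem torD_G2 : TorD (sysG2 F).R.H (sysG2 F).R.N :=
  have := finite_W_G2
  torD_rootBN _ fun _ h _ h' => (sysG2 F).H_comm h h'

omit [Finite F] in
theorem tor_injective_G2 : Injective (sysG2 F).tor :=
  tor_injective _ (by simp only [cm_G2]; exact card_kerG2 _)

theorem index_G2 : (sysG2 F).R.H.index = Nat.card F ^ 6 * (∑ i ∈ Finset.range 2, Nat.card F ^ i) *
    ∑ i ∈ Finset.range 6, Nat.card F ^ i := by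
  have := Fintype.ofFinite F
  refine index_eq (card_H _ (tor_injective_G2 F)) ?_
  rw [S1059.result Nat.card_eq_fintype_card.symm, pow_sub_one_eq Nat.card_pos 2, pow_sub_one_eq Nat.card_pos 6]
  change _ = _ ^ 2 * _
  ring

theorem not_cov_G2_five (h : ((Nat.card F : ℕ) : ZMod 5) = 1) : ¬ Cov (chevG2.group F) 7 := by
  refine (torD_G2 F).not_cov_five (not_dvd_of_cast ?_) fun n hn => pow_mem_H _ hn ?_
  · rw [index_G2]
    push_cast
    rw [h]
    decide
  · refine pow_of_mem_closure (m := 3) (rootTableG2.cs.simple_mul_simple_self (0 : Fin 2))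
      (rootTableG2.cs.simple_mul_simple_self (1 : Fin 2))
      (rootTableG2.cs.simple_mul_simple_pow (0 : Fin 2) (1 : Fin 2)) ?_
    have := rootTableG2.cs.subgroup_closure_range_simple.ge (mem_top ((sysG2 F).R.π ⟨n, hn⟩))
    refine closure_mono ?_ this
    rintro _ ⟨i, rfl⟩
    revert i
    change ∀ i : Fin 2, _
    intro i
    fin_cases i
    exacts [Or.inl rfl, Or.inr rfl]

theorem not_cov_G2_eight (h : ((Nat.card F : ℕ) : ZMod 8) = 1 ∨ ((Nat.card F : ℕ) : ZMod 8) = 5) :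
    ¬ Cov (chevG2.group F) 8 := by
  refine (torD_G2 F).not_cov_eight ?_ (not_dvd_of_cast ?_) ?_
  · rw [relIndex_rootBN, cardG2 rootTableG2.cs]
    norm_num
  · rw [index_G2]
    push_cast
    rcases h with h | h <;> rw [h] <;> decide
  · refine ncard_le_four id injective_id
      (fun b => (sysG2 F).tor (![if b.1 then 1 else -1, if b.2 then 1 else -1] : Fin 2 → Fˣ)) ?_
    rintro _ ⟨hg, h2⟩
    obtain ⟨c, rfl⟩ := (sysG2 F).exists_tor hg
    rw [← map_pow, map_eq_one_iff _ (tor_injective_G2 F)] at h2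
    obtain ⟨b0, h0⟩ := sq_eq_one_units (congrFun h2 (0 : Fin 2))
    obtain ⟨b1, h1⟩ := sq_eq_one_units (congrFun h2 (1 : Fin 2))
    refine ⟨(b0, b1), congrArg _ (funext fun i : Fin 2 => ?_)⟩
    fin_cases i
    exacts [h0.symm, h1.symm]

theorem le_G2 (p : ℕ) [Fact p.Prime] [CharP F p] {r : ℕ} (h : Cov (chevG2.group F) r) :
    r ≤ 6 + (if p = 5 then 1 else 0) := by
  by_contra hr
  split_ifs at hr with hp
  · subst hp
    refine not_cov_G2_eight F ?_ (h.mono (by omega))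
    have := Fintype.ofFinite F
    obtain ⟨n, -, e⟩ := FiniteField.card F 5
    rw [Nat.card_eq_fintype_card, e]
    exact five_pow_cast n
  · have : Fact (Nat.Prime 5) := ⟨by norm_num⟩
    refine not_cov_G2_five (FiniteField.Extension F p 4) ?_
      ((h.mono (by omega)).map _ (fieldHom_injective (algebraMap F _)))
    rw [FiniteField.natCard_extension, Nat.cast_pow]
    exact ZMod.pow_card_sub_one_eq_one (card_cast_ne p hp)

end G2

section F4

variable (F : Type*) [Field F] [Finite F]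

/-- The structure data of `F₄(F)`. -/
noncomputable abbrev sysF4 : ChevSys rootTableF4 (xC chevF4 F) := sysC F (by simp) rootTableF4

theorem finite_W_F4 : Finite rootTableF4.W :=
  Nat.finite_of_card_ne_zero (by rw [cardF4 rootTableF4.cs]; norm_num)

omit [Finite F] in
theorem torD_F4 : TorD (sysF4 F).R.H (sysF4 F).R.N :=
  have := finite_W_F4
  torD_rootBN _ fun _ h _ h' => (sysF4 F).H_comm h h'

omit [Finite F] in
theorem tor_injective_F4 : Injective (sysF4 F).tor :=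
  tor_injective _ (by simp only [cm_F4]; exact card_kerF4 _)

theorem index_F4 : (sysF4 F).R.H.index = Nat.card F ^ 24 * (∑ i ∈ Finset.range 2, Nat.card F ^ i) *
    (∑ i ∈ Finset.range 6, Nat.card F ^ i) * (∑ i ∈ Finset.range 8, Nat.card F ^ i) *
    ∑ i ∈ Finset.range 12, Nat.card F ^ i := by
  have := Fintype.ofFinite F
  refine index_eq (card_H _ (tor_injective_F4 F)) ?_
  rw [S1062.result Nat.card_eq_fintype_card.symm, pow_sub_one_eq Nat.card_pos 2, pow_sub_one_eq Nat.card_pos 6,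
    pow_sub_one_eq Nat.card_pos 8, pow_sub_one_eq Nat.card_pos 12]
  change _ = _ ^ 4 * _
  ring

omit [Finite F] in
theorem pow_mem_F4 {n : chevF4.group F} (hn : n ∈ (sysF4 F).R.N) : n ^ 1152 ∈ (sysF4 F).R.H :=
  pow_mem_H _ hn (by rw [← cardF4 rootTableF4.cs]; exact pow_card_eq_one')

theorem not_cov_F4_eleven (h : ((Nat.card F : ℕ) : ZMod 11) = 1) : ¬ Cov (chevF4.group F) 11 := by
  refine (torD_F4 F).not_cov_eleven (not_dvd_of_cast ?_) fun n hn => pow_mem_F4 F hn
  rw [index_F4]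
  push_cast
  rw [h]
  decide

theorem not_cov_F4_twelve (h : ((Nat.card F : ℕ) : ZMod 5) = 1) (h' : ((Nat.card F : ℕ) : ZMod 7) = 1) :
    ¬ Cov (chevF4.group F) 12 := by
  refine (torD_F4 F).not_cov_twelve (not_dvd_of_cast ?_) (not_dvd_of_cast ?_)
    (fun n hn => pow_mem_F4 F hn) fun n hn => ?_
  · rw [index_F4]
    push_cast
    rw [h]
    decide
  · rw [index_F4]
    push_cast
    rw [h']
    decide
  · rcases trichotomyF4 rootTableF4.cs rootTableF4.isCartan cm_F4 ((sysF4 F).R.π ⟨n, hn⟩)⁻¹ with h | h | h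
    · exact Or.inl (pow_mem_H _ hn (by rwa [inv_pow, inv_eq_one] at h))
    · exact Or.inr (Or.inl (pow_mem_H _ hn (by rwa [inv_pow, inv_eq_one] at h)))
    · exact Or.inr (Or.inr fun g hg => conj_tor_rel (sysF4 F) ⟨n, hn⟩ h hg)

theorem le_F4 (p : ℕ) [Fact p.Prime] [CharP F p] {r : ℕ} (h : Cov (chevF4.group F) r) :
    r ≤ 10 + (if p = 11 then 1 else 0) := by
  by_contra hr
  split_ifs at hr with hp
  · subst hp
    have : Fact (Nat.Prime 5) := ⟨by norm_num⟩
    have : Fact (Nat.Prime 7) := ⟨by norm_num⟩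
    refine not_cov_F4_twelve (FiniteField.Extension F 11 12) ?_ ?_
      ((h.mono (by omega)).map _ (fieldHom_injective (algebraMap F _)))
    · rw [FiniteField.natCard_extension, Nat.cast_pow, show 12 = (5 - 1) * 3 from rfl, pow_mul,
        ZMod.pow_card_sub_one_eq_one (card_cast_ne 11 (by norm_num)), one_pow]
    · rw [FiniteField.natCard_extension, Nat.cast_pow, show 12 = (7 - 1) * 2 from rfl, pow_mul,
        ZMod.pow_card_sub_one_eq_one (card_cast_ne 11 (by norm_num)), one_pow]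
  · have : Fact (Nat.Prime 11) := ⟨by norm_num⟩
    refine not_cov_F4_eleven (FiniteField.Extension F p 10) ?_
      ((h.mono (by omega)).map _ (fieldHom_injective (algebraMap F _)))
    rw [FiniteField.natCard_extension, Nat.cast_pow]
    exact ZMod.pow_card_sub_one_eq_one (card_cast_ne p hp)

end F4

section D4

variable {K : Type*} [Field K] [Fintype K] {q : ℕ} (hq : IsPrimePow q) (hK : Fintype.card K = q ^ 3)

theorem finite_W_D4 : Finite rootTableD4.W :=
  Nat.finite_of_card_ne_zero (by rw [cardD4 rootTableD4.cs]; norm_num)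

include hq hK in
theorem exists_torD_D4 : ∃ H N : Subgroup (twistedD4 K q), TorD H N ∧
    H.index = q ^ 12 * (q + 1) * (q ^ 3 + 1) * (q ^ 8 + q ^ 4 + 1) ∧ (∀ n ∈ N, n ^ 6 ∈ H) ∧
    H.relIndex N = 12 ∧ {h | h ∈ H ∧ h ^ 2 = 1}.ncard ≤ 4 := by
  have := finite_W_D4
  obtain ⟨S, φ, hφ, h, e⟩ := D4.exists_data hq hK
  have hj := inclusion_injective (D4.le_group (K := K) (q := q))
  have hr := (inclusion_range D4.le_group).trans e
  have hab : ∀ i : Fin 2, i = 0 ∨ i = 1 := by decide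
  refine ⟨_, _, torD_twist _ _ hj hr fun _ h _ h' => S.H_comm h h', ?_,
    fun n hn => pow_mem_twist _ _ hr hab (m := 3) (D4.orderOf_wJ S φ hφ 0 1) hn,
    (relIndex_twist _ _ hj hr hab).trans (by rw [D4.orderOf_wJ]; rfl), ?_⟩
  · refine index_eq ((card_comap_of_injective _ hj _).trans (hr ▸ D4.card_H S φ hφ h hK hq.one_lt.le)) ?_
    rw [D4.card_T S φ hφ h hK hq.one_lt.le _ hj hr, pow_sub_one_eq hq.one_lt.le 2, pow_sub_one_eq hq.one_lt.le 6]
    simp only [Finset.sum_range_succ, Finset.range_zero, Finset.sum_empty]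
    ring
  · refine ncard_le_four _ hj (fun b => S.tor (![if b.1 then 1 else -1, if b.2 then 1 else -1,
      if b.1 then 1 else -1, if b.1 then 1 else -1] : Fin 4 → Kˣ)) ?_
    rintro g ⟨hg, h2⟩
    have h3 : inclusion D4.le_group g ∈ S.R.H ⊓ (D4.tw S φ hφ).data.Fix :=
      ⟨hg, TwistData.T_le_Fix _ (TwistData.j_mem _ _ hr g)⟩
    rw [TwMap.H_inf_Fix _ (D4.exists_fixT S φ hφ)] at h3
    obtain ⟨c, hc, e'⟩ := h3
    have h4 : c ^ 2 ∈ S.tor.ker ⊓ (D4.tw S φ hφ).fixT :=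
      ⟨MonoidHom.mem_ker.2 (by rw [map_pow, e', ← map_pow, h2, map_one]), pow_mem hc 2⟩
    rw [D4.ker_inf_fixT, mem_bot] at h4
    obtain ⟨b0, h0⟩ := sq_eq_one_units (congrFun h4 (0 : Fin 4))
    obtain ⟨b1, h1⟩ := sq_eq_one_units (congrFun h4 (1 : Fin 4))
    obtain ⟨c2, -, c3⟩ := (D4.mem_fixT S φ hφ).1 hc
    have h5 : φ (c (0 : Fin 4)) = c (0 : Fin 4) := by
      rw [h0]
      cases b0 <;> simp
    rw [h5] at c2 c3
    rw [h5] at c3
    refine ⟨(b0, b1), e' ▸ congrArg _ (funext fun i : Fin 4 => ?_)⟩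
    fin_cases i
    exacts [h0.symm, h1.symm, h0.symm.trans (Units.ext c2.symm), h0.symm.trans (Units.ext c3.symm)]

include hK in
theorem exists_emb_D4 {K' : Type*} [Field K'] (f : K →+* K') :
    ∃ j : twistedD4 K q →* twistedD4 K' (q ^ 4), Injective j := by
  have h0 : ∀ t : K, t ^ q ^ 3 = t := fun t => by rw [← hK, FiniteField.pow_card]
  have h1 : ((twistedD4 K q).subgroupOf (chevD4.group K)).map (fieldHom chevD4 f) ≤
      (twistedD4 K' (q ^ 4)).subgroupOf (chevD4.group K') := by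
    rw [twistedD4, twistedD4, genSubgroup_subgroupOf, genSubgroup_subgroupOf, map_le_iff_le_comap, closure_le]
    rintro _ ⟨w, ⟨t, ht, r, hr, rfl⟩ | ⟨t, rs, hrs, rfl⟩, rfl⟩
    · refine subset_closure ⟨_, Or.inl ⟨f t, ?_, r, hr, rfl⟩, by simp [word]⟩
      rw [← map_pow, pow_succ, pow_mul, h0, ht]
    · refine subset_closure ⟨_, Or.inr ⟨f t, rs, hrs, rfl⟩, ?_⟩
      have e1 : t ^ q ^ 4 = t ^ q := by rw [pow_succ, pow_mul, h0]
      have e2 : t ^ (q ^ 4) ^ 2 = t ^ q ^ 2 := by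
        rw [show (q ^ 4) ^ 2 = q ^ 3 * (q ^ 3 * q ^ 2) by ring, pow_mul, h0, pow_mul, h0]
      simp [word, ← map_pow, e1, e2]
  refine ⟨((chevD4.group K').subtype.comp ((fieldHom chevD4 f).comp (inclusion D4.le_group))).codRestrict _
    fun g => h1 ⟨_, g.2, rfl⟩, fun a b hab => ?_⟩
  have h2 := congrArg Subtype.val hab
  exact inclusion_injective D4.le_group (fieldHom_injective f (Subtype.ext h2))

include hq hK in
theorem not_cov_D4_five (h : (q : ZMod 5) = 1) : ¬ Cov (twistedD4 K q) 7 := by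
  obtain ⟨H, N, hT, h1, h2, -⟩ := exists_torD_D4 hq hK
  refine hT.not_cov_five (not_dvd_of_cast ?_) h2
  rw [h1]
  push_cast
  rw [h]
  decide

theorem le_D4 (p a : ℕ) [hp : Fact p.Prime] [CharP K p] (ha : 1 ≤ a) (hK : Fintype.card K = (p ^ a) ^ 3) {r : ℕ}
    (h : Cov (twistedD4 K (p ^ a)) r) : r ≤ 6 + (if p = 5 then 1 else 0) := by
  by_contra hr
  have hq : IsPrimePow (p ^ a) := hp.1.isPrimePow.pow (by omega)
  split_ifs at hr with h5
  · subst h5
    obtain ⟨H, N, hT, h1, -, h2, h3⟩ := exists_torD_D4 hq hK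
    refine hT.not_cov_eight (by rw [h2]; norm_num) (not_dvd_of_cast ?_) h3 (h.mono (by omega))
    rw [h1]
    have := five_pow_cast a
    generalize 5 ^ a = q at this
    push_cast
    rcases this with h | h <;> rw [h] <;> decide
  · have : Fact (Nat.Prime 5) := ⟨by norm_num⟩
    have := Fintype.ofFinite (FiniteField.Extension K p 4)
    obtain ⟨j, hj⟩ := exists_emb_D4 hK (algebraMap K (FiniteField.Extension K p 4))
    refine not_cov_D4_five (K := FiniteField.Extension K p 4) (hq.pow (k := 4) (by omega))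
      (by rw [← Nat.card_eq_fintype_card, FiniteField.natCard_extension, Nat.card_eq_fintype_card, hK]; ring)
      ?_ ((h.mono (by omega)).map j hj)
    rw [Nat.cast_pow]
    refine ZMod.pow_card_sub_one_eq_one (p := 5) ?_
    rw [Ne, ZMod.natCast_eq_zero_iff]
    exact fun h' => h5 ((Nat.prime_dvd_prime_iff_eq Nat.prime_five hp.1).1 (Nat.prime_five.dvd_of_dvd_pow h')).symm

end D4

theorem two_pow_cast (n : ℕ) :
    ((2 ^ n : ℕ) : ZMod 7) = 1 ∨ ((2 ^ n : ℕ) : ZMod 7) = 2 ∨ ((2 ^ n : ℕ) : ZMod 7) = 4 := by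
  induction n with
  | zero => exact Or.inl rfl
  | succ n ih =>
    rw [pow_succ, Nat.cast_mul]
    rcases ih with h | h | h <;> rw [h] <;> decide

theorem not_cov_twF4 {K : Type*} [Field K] [Fintype K] {m : ℕ} (hK : Fintype.card K = 2 ^ (2 * m + 1)) :
    ¬ Cov (twistedF4 K (2 ^ m)) 7 := by
  have := finite_W_F4
  obtain ⟨_, S, θ, hθ, h, e⟩ := F4.exists_data hK
  have hj := inclusion_injective (F4.le_group (K := K) (e := 2 ^ m))
  have hr := (inclusion_range F4.le_group).trans e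
  have hab : ∀ i : Fin 2, i = 0 ∨ i = 1 := by decide
  refine (torD_twist _ _ hj hr fun _ h _ h' => S.H_comm h h').not_cov_seven (not_dvd_of_cast ?_) fun n hn => ?_
  · have h1 := two_pow_cast (2 * m + 1)
    generalize 2 ^ (2 * m + 1) = q at hK h1
    have hq : 1 ≤ q := hK ▸ Fintype.card_pos
    rw [index_eq (b := q ^ 12 * (q ^ 3 + 1) * (q + 1) * (q ^ 2 + 1) * (q ^ 6 + 1))
      ((card_comap_of_injective _ hj _).trans (hr ▸ F4.card_H S θ hθ))]
    · push_cast
      rcases h1 with h | h | h <;> rw [h] <;> decide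
    · rw [F4.card_T S θ hθ hK _ hj hr, hK, pow_sub_one_eq hq 4]
      simp only [Finset.sum_range_succ, Finset.range_zero, Finset.sum_empty]
      ring
  · have := pow_mem_twist _ _ hr hab (m := 4) (F4.orderOf_wJ S θ hθ 0 1) hn
    exact pow_mul n (2 * 4) 2 ▸ pow_mem this 2

end Cfsg.Agent.AltSec
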