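import Mathlib
import Cfsg.Agent.Chev.CoxWord

/-!
The centre of an irreducible crystallographic Coxeter group; generation tests by words.
-/

set_option autoImplicit false

namespace Cfsg.Agent.Chev

open CoxeterSystem

section

variable {B : Type*} [Fintype B] [DecidableEq B] {W : Type*} [Group W] {M : CoxeterMatrix B}
  {A : B → B → ℤ}

theorem exists_smul_of_commute (cs : CoxeterSystem M W) (h : IsCartanFor M A) {w : W} {i : B}
    (hw : cs.simple i * w = w * cs.simple i) :
    geomRep cs h w (sroot i) = geomRep cs h w (sroot i) i • sroot i := by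
  have h1 : srefl A i (geomRep cs h w (sroot i)) = - geomRep cs h w (sroot i) := by
    rw [← geomRep_simple cs h, ← geomRep_mul_apply, hw, geomRep_mul_apply, geomRep_simple,
      srefl_sroot_self h, map_neg]
  ext k
  by_cases hk : k = i
  · subst hk; simp [sroot]
  · have := congrFun h1 k
    rw [srefl_apply_ne A hk, Pi.neg_apply] at this
    have h2 : geomRep cs h w (sroot i) k = 0 := by omega
    rw [h2]; simp [sroot, hk]

/-- A central element acts on the weight `ρ` as `1` or `-1`. -/
theorem dact_one_of_mem_center (cs : CoxeterSystem M W) (h : IsCartanFor M A)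
    (hconn : ∀ S : B → Bool, (∀ i j, A i j ≠ 0 → S i = S j) → ∀ i j, S i = S j) {w : W}
    (hw : w ∈ Subgroup.center W) :
    dact cs h (fun _ => 1) w = (fun _ => 1) ∨ dact cs h (fun _ => 1) w = fun _ => -1 := by
  set c : B → ℤ := fun i => geomRep cs h w (sroot i) i with hc
  have h1 : ∀ i, geomRep cs h w (sroot i) = c i • sroot i := fun i =>
    exists_smul_of_commute cs h (Subgroup.mem_center_iff.1 hw _)
  have h2 : ∀ i, c i = 1 ∨ c i = -1 := by
    intro i
    have h3 := exists_smul_of_commute cs h (i := i) (Subgroup.mem_center_iff.1 (inv_mem hw) _)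
    have h4 := geomRep_inv_apply cs h w (sroot i)
    rw [h1, map_zsmul, h3, smul_smul] at h4
    have h5 := congrFun h4 i
    simp only [sroot, Pi.smul_apply, Pi.single_eq_same, smul_eq_mul, mul_one] at h5
    exact Int.eq_one_or_neg_one_of_mul_eq_one h5
  have h3 : ∀ i j, A i j ≠ 0 → c i = c j := by
    intro i j hij
    by_cases e : i = j
    · rw [e]
    have h4 : srefl A i (geomRep cs h w (sroot j)) = geomRep cs h w (srefl A i (sroot j)) := by
      rw [← geomRep_simple cs h, ← geomRep_mul_apply, Subgroup.mem_center_iff.1 hw, geomRep_mul_apply]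
    rw [h1, map_zsmul, srefl_sroot, map_sub, map_zsmul, h1, h1] at h4
    have h5 := congrFun h4 i
    simp only [sroot, Pi.smul_apply, Pi.sub_apply, Pi.single_eq_same, smul_eq_mul, mul_one,
      Pi.single_eq_of_ne e, mul_zero, zero_sub] at h5
    have : A i j * (c i - c j) = 0 := by linarith
    rcases mul_eq_zero.1 this with h6 | h6
    · exact absurd h6 hij
    · omega
  have h4 := hconn (fun i => decide (c i = 1)) (fun i j hij => by rw [h3 i j hij])
  have h5 : ∀ i, dact cs h (fun _ => 1) w i = c i := by
    intro i
    rw [dact_apply, h1, dotProduct_smul]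
    simp [sroot, dotProduct, Pi.single_apply]
  by_cases h6 : ∀ i, c i = 1
  · left; ext i; rw [h5, h6]
  · right
    push Not at h6
    obtain ⟨j, hj⟩ := h6
    ext i
    rw [h5]
    have := h4 i j
    simp only [decide_eq_decide, hj, iff_false] at this
    exact (h2 i).resolve_left this

end

section

variable {n : ℕ} {W : Type*} [Group W] {M : CoxeterMatrix (Fin n)}

theorem lvec_replicate (n : ℕ) (x : ℤ) : lvec n (List.replicate n x) = fun _ => x := by
  ext i; simp [lvec, List.getD_eq_getElem?_getD]

/-- A central element is `1` or the given word `u` sending `ρ` to `-ρ`. -/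
theorem eq_one_or_eq_of_mem_center (cs : CoxeterSystem M W) {a : List (List ℤ)}
    (h : IsCartanFor M (amat n a)) (ha : ∀ i < n, (a.getD i []).length = n)
    (hconn : ∀ S : Fin n → Bool, (∀ i j, amat n a i j ≠ 0 → S i = S j) → ∀ i j, S i = S j)
    (u : List (Fin n)) (hu : lact a (List.replicate n 1) (u.map Fin.val) = List.replicate n (-1))
    {w : W} (hw : w ∈ Subgroup.center W) : w = 1 ∨ w = cs.wordProd u := by
  rcases dact_one_of_mem_center cs h hconn hw with h1 | h1
  · left; exact eq_one_of_dact_eq_self cs h (fun _ => one_pos) h1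
  · right
    refine eq_of_dact_eq cs h (lam := fun _ => 1) (fun _ => one_pos) ?_
    rw [h1, ← lvec_replicate, ← lvec_replicate, dact_wordProd_list cs h ha (by simp), hu]

theorem wordProd_mem_center (cs : CoxeterSystem M W) {a : List (List ℤ)}
    (h : IsCartanFor M (amat n a)) (ha : ∀ i < n, (a.getD i []).length = n) (u : List (Fin n))
    (hu : ∀ i : Fin n, lact a (List.replicate n 1) ((i :: u).map Fin.val) =
      lact a (List.replicate n 1) ((u ++ [i]).map Fin.val)) :
    cs.wordProd u ∈ Subgroup.center W := by
  rw [Subgroup.mem_center_iff]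
  intro g
  have key : ∀ i, cs.simple i * cs.wordProd u = cs.wordProd u * cs.simple i := fun i => by
    have := (wordProd_eq_iff_lact cs h ha _ _).2 (hu i)
    rwa [wordProd_cons, wordProd_append, wordProd_singleton] at this
  refine cs.simple_induction (p := fun g => g * cs.wordProd u = cs.wordProd u * g) g key (by simp) ?_
  intro w w' h1 h2
  rw [mul_assoc, h2, ← mul_assoc, h1, mul_assoc]

theorem center_eq_zpowers (cs : CoxeterSystem M W) {a : List (List ℤ)}
    (h : IsCartanFor M (amat n a)) (ha : ∀ i < n, (a.getD i []).length = n)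
    (hconn : ∀ S : Fin n → Bool, (∀ i j, amat n a i j ≠ 0 → S i = S j) → ∀ i j, S i = S j)
    (u : List (Fin n)) (hu : lact a (List.replicate n 1) (u.map Fin.val) = List.replicate n (-1))
    (hu' : ∀ i : Fin n, lact a (List.replicate n 1) ((i :: u).map Fin.val) =
      lact a (List.replicate n 1) ((u ++ [i]).map Fin.val)) :
    Subgroup.center W = Subgroup.zpowers (cs.wordProd u) := by
  refine le_antisymm (fun w hw => ?_) (Subgroup.zpowers_le.2 (wordProd_mem_center cs h ha u hu'))
  rcases eq_one_or_eq_of_mem_center cs h ha hconn u hu hw with rfl | rfl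
  · exact one_mem _
  · exact Subgroup.mem_zpowers _

theorem center_eq_bot (cs : CoxeterSystem M W) {a : List (List ℤ)}
    (h : IsCartanFor M (amat n a)) (ha : ∀ i < n, (a.getD i []).length = n)
    (hconn : ∀ S : Fin n → Bool, (∀ i j, amat n a i j ≠ 0 → S i = S j) → ∀ i j, S i = S j)
    (u : List (Fin n)) (hu : lact a (List.replicate n 1) (u.map Fin.val) = List.replicate n (-1))
    (i : Fin n) (hu' : lact a (List.replicate n 1) ((i :: u).map Fin.val) ≠
      lact a (List.replicate n 1) ((u ++ [i]).map Fin.val)) :
    Subgroup.center W = ⊥ := by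
  rw [eq_bot_iff]
  intro w hw
  rcases eq_one_or_eq_of_mem_center cs h ha hconn u hu hw with rfl | rfl
  · exact one_mem _
  · refine absurd ((wordProd_eq_iff_lact cs h ha _ _).1 ?_) hu'
    rw [wordProd_cons, wordProd_append, wordProd_singleton]
    exact Subgroup.mem_center_iff.1 hw _

/-- A subgroup containing the words `gens`, in which every generator is a product of them, is everything. -/
theorem eq_top_of_words (cs : CoxeterSystem M W) {a : List (List ℤ)}
    (h : IsCartanFor M (amat n a)) (ha : ∀ i < n, (a.getD i []).length = n)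
    (gens : List (List (Fin n))) (H : Subgroup W) (hg : ∀ ω ∈ gens, cs.wordProd ω ∈ H)
    (ws : List (List ℕ))
    (hws : ∀ i : Fin n, lact a (List.replicate n 1)
        (((ws.getD i []).flatMap fun k => gens.getD k []).map Fin.val) =
      lact a (List.replicate n 1) ([i].map Fin.val)) : H = ⊤ := by
  rw [eq_top_iff, ← cs.subgroup_closure_range_simple, Subgroup.closure_le]
  rintro _ ⟨i, rfl⟩
  have := (wordProd_eq_iff_lact cs h ha _ _).2 (hws i)
  rw [wordProd_singleton] at this
  rw [← this]
  generalize ws.getD i [] = l
  induction l with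
  | nil => simp
  | cons k l ih =>
    rw [List.flatMap_cons, wordProd_append]
    refine mul_mem ?_ ih
    rw [List.getD_eq_getElem?_getD]
    cases e : gens[k]? with
    | none => simp
    | some ω => exact hg ω (List.mem_of_getElem? e)

end

end Cfsg.Agent.Chev
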