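import Mathlib
import Cfsg.Agent.Chev.TwoGen
import Cfsg.Agent.Chev.FoldInst
import Cfsg.Agent.Chev.TwistD4F
import Cfsg.Agent.Chev.TwistE6F
import Cfsg.Agent.Chev.TwistF4F

/-!
Two-element generation of `³D₄(q)`, `²E₆(q)` and `²F₄(q)`.
-/

set_option autoImplicit false

namespace Cfsg.Agent.TwoGen

open Cfsg.Lie Cfsg.Agent.Chev Subgroup

theorem exists_gen_sub {Γ : Type*} [Group Γ] {A B : Subgroup Γ} (hAB : A ≤ B) {T : Subgroup B}
    (e : A.subgroupOf B = T) (h : ∃ a ∈ T, ∃ b ∈ T, T ≤ closure {a, b}) : ∃ a b : A, closure {a, b} = ⊤ := by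
  subst e
  obtain ⟨a, ha, b, hb, h⟩ := h
  refine ⟨⟨a, ha⟩, ⟨b, hb⟩, map_injective (inclusion_injective hAB) (le_antisymm (map_mono le_top) ?_)⟩
  rw [← MonoidHom.range_eq_map, inclusion_range, MonoidHom.map_closure, Set.image_pair]
  exact h

theorem T_le_of_neg {B : Type*} [Fintype B] [DecidableEq B] {W : Type*} [Group W] {M : CoxeterMatrix B}
    {A : B → B → ℤ} {G : Type*} [Group G] {Φ : Type*} {cs : CoxeterSystem M W} {hA : IsCartanFor M A}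
    {R : RootBN G Φ cs hA} {ι : Type*} (D : TwistData R ι) {K : Subgroup G} (n : R.N) (hn : (n : G) ∈ K)
    (hT : (n : G) ∈ D.T) (hneg : ∀ v, geomRep cs hA (R.π n) v = -v)
    (h1 : ∀ a, ∀ u ∈ R.UJ (D.J a), D.σ u = u → u ∈ K) : D.T ≤ K := by
  refine D.T_le h1 fun a v hv hf => ?_
  have h2 := h1 a _ (R.conj_mem_rootSpan n (p := fun v => v ≤ 0 ∧ ∀ k, k ∉ D.J a → v k = 0)
    (p' := fun v => 0 ≤ v ∧ ∀ k, k ∉ D.J a → v k = 0)
    (fun r r' h e => by rw [e, hneg]; exact ⟨neg_nonneg.2 h.1, fun k hk => by simp [h.2 k hk]⟩) hv)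
    (by rw [map_mul, map_mul, map_inv, D.σ_eq hT, hf])
  rwa [K.mul_mem_cancel_right (inv_mem hn), K.mul_mem_cancel_left hn] at h2

theorem geomRep_neg {n : ℕ} {W : Type*} [Group W] {M : CoxeterMatrix (Fin n)} (cs : CoxeterSystem M W)
    {A : Fin n → Fin n → ℤ} (h : IsCartanFor M A) {a : List (List ℤ)} (e : A = amat n a)
    (ha : ∀ i < n, (a.getD i []).length = n) (ω : List (Fin n))
    (hc : ∀ k j : Fin n, (lact a (lfund n k) (ω.map Fin.val)).getD j 0 = if j = k then -1 else 0)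
    (v : Fin n → ℤ) : geomRep cs h (cs.wordProd ω) v = -v := by
  subst e
  exact geomRep_eq_neg_of_check cs h ha ω hc v

theorem mem_sp_norm {K : Type*} [Field K] [Fintype K] {q m : ℕ} (hq : 2 ≤ q)
    (hK : Fintype.card K = (q - 1) * m + 1) {k : Kˣ} (hk : ∀ u, u ∈ zpowers k) {t : K} (ht : t ^ q = t) :
    t ∈ sp (k ^ m) := by
  by_cases h0 : t = 0
  · simp [h0]
  obtain ⟨j, hj⟩ := mem_powers_iff_mem_zpowers.2 (hk (Units.mk0 t h0))
  have h1 : k ^ (j * (q - 1)) = 1 := by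
    obtain ⟨q, rfl⟩ := Nat.exists_eq_add_of_le' (Nat.one_le_of_lt hq)
    rw [pow_mul, show k ^ j = _ from hj]
    exact Units.ext (mul_right_cancel₀ h0 (by simpa [pow_succ] using ht))
  have h2 := orderOf_dvd_of_pow_eq_one h1
  rw [orderOf_eq_card_of_forall_mem_zpowers hk, Nat.card_units, Nat.card_eq_fintype_card, hK, add_tsub_cancel_right,
    mul_comm j] at h2
  obtain ⟨i, rfl⟩ := Nat.dvd_of_mul_dvd_mul_left (by omega) h2
  exact mem_sp (d := Units.mk0 t h0) ⟨i, by simpa [pow_mul] using hj⟩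

theorem sq_ne_one_of_gen {K : Type*} [Field K] [Fintype K] (h : 3 < Fintype.card K) {k : Kˣ}
    (hk : ∀ u, u ∈ zpowers k) : k ^ 2 ≠ 1 := fun e => by
  obtain ⟨c, hc⟩ := exists_sq_ne_one h
  obtain ⟨j, rfl⟩ := hk c
  exact hc (by simp only [← zpow_natCast, ← zpow_mul, mul_comm j]; rw [zpow_mul, zpow_natCast, e, one_zpow])

theorem wordProd_pow {B W : Type*} [Group W] {M : CoxeterMatrix B} (cs : CoxeterSystem M W) (l : List B) (j : ℕ) :
    cs.wordProd l ^ j = cs.wordProd (List.replicate j l).flatten := by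
  induction j with
  | zero => simp
  | succ j ih => rw [pow_succ', ih, List.replicate_succ, List.flatten_cons, cs.wordProd_append]

theorem commute_of_conj {G : Type*} [Group G] {u h : G} (e : h * u * h⁻¹ = u) : Commute u h :=
  (mul_inv_eq_iff_eq_mul.1 e).symm

section D4

variable {K : Type*} [Field K] {G : Type*} [Group G] {x : ℕ → K → G} (S : ChevSys rootTableD4 x) (φ : K →+* K)
  (hφ : ∀ t, φ (φ (φ t)) = t)

theorem conj_three {x : ℕ → K → G} {g : G} {r s k : ℕ} {a : K} (h1 : ∀ t, g * x r t * g⁻¹ = x r (a * t))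
    (h2 : ∀ t, g * x s t * g⁻¹ = x s (φ a * t)) (h3 : ∀ t, g * x k t * g⁻¹ = x k (φ (φ a) * t)) (t : K) :
    g * (x r t * x s (φ t) * x k (φ (φ t))) * g⁻¹ = x r (a * t) * x s (φ (a * t)) * x k (φ (φ (a * t))) := by
  rw [map_mul, map_mul, ← h1, ← h2, ← h3]
  group

theorem gen_tD4 [Fintype K] {q : ℕ} (h2 : 2 ≤ q) (hq : ∀ t, φ t = t ^ q) (hK : Fintype.card K = q ^ 3) :
    ∃ a ∈ (D4.tw S φ hφ).data.T, ∃ b ∈ (D4.tw S φ hφ).data.T, (D4.tw S φ hφ).data.T ≤ closure {a, b} := by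
  obtain ⟨k, hk⟩ := IsCyclic.exists_generator (α := Kˣ)
  have hk2 := sq_ne_one_of_gen (hK ▸ (by norm_num : 3 < 2 ^ 3).trans_le (Nat.pow_le_pow_left h2 3)) hk
  let f : Kˣ →* Kˣ := Units.map φ.toMonoidHom
  have hf : ∀ u, (f u : K) = φ u := fun _ => rfl
  let c : Fin 4 → Kˣ := ![k, 1, f k, f (f k)]
  let X : K → G := fun t => x 18 t * x 13 (φ t) * x 12 (φ (φ t))
  let D := (D4.tw S φ hφ).data
  let n : S.R.N := D.nJ 1 * D.nJ 0
  have hn : S.R.π n = rootTableD4.cs.wordProd ([1, 0, 2, 3] : List (Fin 4)) := by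
    rw [map_mul, D.π_nJ, D.π_nJ]
    exact (rootTableD4.cs.wordProd_append _ _).symm
  have hnT : (n : G) ∈ D.T := mul_mem (D.nJ_mem 1) (D.nJ_mem 0)
  have hX : ∀ t u, X t * X u = X (t + u) := fun t u => by
    simp only [X, map_add, ← S.st.add 18 (by decide), ← S.st.add 13 (by decide), ← S.st.add 12 (by decide)]
    rw [((D4.comm S 18 12 (by decide +kernel) u _).symm.mul_right
      (D4.comm S 13 12 (by decide +kernel) _ _).symm).mul_mul_mul_comm,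
      (D4.comm S 18 13 (by decide +kernel) u _).symm.mul_mul_mul_comm]
  have ht : ∀ (r : ℕ) (v : Fin 4 → ℤ), r < chevD4.nroots ∧ (∀ i : Fin 4, chevD4.cartan i r = v i) → ∀ t,
      S.tor c * x r t * (S.tor c)⁻¹ = x r ((k ^ v 0 * f k ^ v 2 * f (f k) ^ v 3 : Kˣ) * t) := fun r v hv t =>
    (S.tor_conj c (rootTableD4.lt_iff.1 hv.1) t).trans (by rw [D4.chi_eq r v hv.2]; simp [c])
  have ht' : ∀ (r s : ℕ) (v : Fin 4 → ℤ), (s < chevD4.nroots ∧ act chevD4 ([1, 0, 2, 3] : List (Fin 4)) s = r) ∧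
      (∀ i : Fin 4, chevD4.cartan i s = v i) → ∀ t, n * S.tor c * (n : G)⁻¹ * x r t * (n * S.tor c * (n : G)⁻¹)⁻¹ =
        x r ((k ^ v 0 * f k ^ v 2 * f (f k) ^ v 3 : Kˣ) * t) := fun r s v hv t =>
    (conj_tor_word S n hn hv.1 c t).trans (by rw [D4.chi_eq s v hv.2]; simp [c])
  have hcT : S.tor c ∈ D.T := D4.tor_mem_T S φ hφ ((D4.mem_fixT S φ hφ).2 ⟨rfl, (map_one φ).symm, rfl⟩)
  have huT : x 23 1 ∈ D.T := D4.mem_T₁ S φ hφ 23 (by decide +kernel) (map_one φ)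
  refine ⟨x 23 1 * S.tor c, mul_mem huT hcT, X 1 * n, mul_mem (D4.par_pos_mem S φ hφ (a := 0) ⟨1, rfl⟩) hnT, ?_⟩
  set L := closure {x 23 1 * S.tor c, X 1 * n}
  have hb : X 1 * n ∈ L := subset_closure (by simp)
  obtain ⟨h0, hh⟩ := mem_of_mul_mem (K := L) (u := x 23 1) (h := S.tor c)
    (commute_of_conj (by simpa using ht 23 ![0, 1, 0, 0] (by decide +kernel) 1))
    (X_pow_char (S.st.add _ (by decide)) 1) (tor_pow_card S c) (coprime_card K) (subset_closure (by simp))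
  have h3 : ∀ t, X t ∈ L := by
    refine trick hX hh hb (c := k ^ 2) (c' := k⁻¹ * f k * f (f k)) (conj_three φ ?_ ?_ ?_) (conj_three φ ?_ ?_ ?_)
      (S.H_comm (S.tor_mem c) (S.R.conj_mem_H n (S.tor_mem c))) hk2 (fun e => hk2 ?_) (mem_sp_sq hk)
    · simpa [zpow_ofNat] using ht 18 ![2, -1, 0, 0] (by decide +kernel)
    · simpa [zpow_ofNat, hf] using ht 13 ![0, -1, 2, 0] (by decide +kernel)
    · simpa [zpow_ofNat, hf] using ht 12 ![0, -1, 0, 2] (by decide +kernel)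
    · simpa using ht' 18 17 ![-1, 0, 1, 1] (by decide +kernel)
    · simpa [hf, hφ, mul_comm, mul_left_comm, mul_assoc] using ht' 13 20 ![1, 0, -1, 1] (by decide +kernel)
    · simpa [hf, hφ, mul_comm, mul_left_comm] using ht' 12 21 ![1, 0, 1, -1] (by decide +kernel)
    · have e1 : f (f (f k)) = k := Units.ext (hφ _)
      have e2 := congrArg (fun u => f (f u)) e
      have e3 := congrArg f e
      simp only [map_mul, map_inv, map_one, e1] at e2 e3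
      calc k ^ 2 = ((f (f k))⁻¹ * k * f k) * ((f k)⁻¹ * f (f k) * k) := by
            simp [sq, mul_comm, mul_left_comm, mul_assoc]
        _ = 1 := by rw [e2, e3, one_mul]
  have hnL : (n : G) ∈ L := (L.mul_mem_cancel_left (h3 1)).1 hb
  refine T_le_of_neg D (n ^ 3) (pow_mem hnL 3) (pow_mem hnT 3) (fun v => ?_) fun a u hu hf' => ?_
  · rw [(map_pow _ _ _).trans ((congrArg (· ^ 3) hn).trans (wordProd_pow rootTableD4.cs _ 3))]
    exact geomRep_neg rootTableD4.cs rootTableD4.isCartan cm_D4 length_cartanD4 _ (by decide +kernel) v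
  · have h4 := (D4.fix_pos S φ hφ a u).1 ⟨(D4.tw S φ hφ).UJ_eq a ▸ hu, hf'⟩
    fin_cases a
    · obtain ⟨t, rfl⟩ := h4
      exact h3 t
    · obtain ⟨t, ht1, rfl⟩ := h4
      obtain ⟨a, ha, e⟩ := conj_x_word S n hn (r := 23) (s := 14) (by decide +kernel)
      have e1 : x 14 a⁻¹ = (n : G)⁻¹ * x 23 1 * n := by
        rw [← mul_inv_cancel₀ ha, ← e]
        group
      have h5 : φ a⁻¹ = a⁻¹ := S.x_inj (r := 14) (by decide) ((D4.sig_x S φ hφ 14 14 (by decide +kernel) _).symm.trans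
        (D.σ_eq (e1 ▸ mul_mem (mul_mem (inv_mem hnT) huT) hnT)))
      have h6 := fill (S.st.add 14 (by decide)) hh (ht 14 ![-1, 2, -1, -1] (by decide +kernel))
        (e1 ▸ mul_mem (mul_mem (inv_mem hnL) h0) hnL) (t := t * a) ?_
      · rwa [mul_inv_cancel_right₀ ha] at h6
      · have h7 : (k ^ (-1 : ℤ) * f k ^ (-1 : ℤ) * f (f k) ^ (-1 : ℤ) : Kˣ) = (k ^ (1 + q + q ^ 2))⁻¹ :=
          Units.ext (by simp [hf, hq, pow_add, sq, pow_mul, mul_comm])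
        refine (congrArg sp h7).ge ((sp_inv _).ge (mem_sp_norm h2 ?_ hk ?_))
        · obtain ⟨q, rfl⟩ := Nat.exists_eq_add_of_le' (Nat.one_le_of_lt h2)
          rw [hK, add_tsub_cancel_right]
          ring
        · rw [map_inv₀, inv_inj] at h5
          rw [← hq, map_mul, ht1, h5]

end D4

section E6

attribute [local instance] goodF4 goodE6

variable {K : Type*} [Field K] (S : ChevSys rootTableE6 (xC chevE6 K)) (φ : K →+* K) (hφ : ∀ t, φ (φ t) = t)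

theorem conj_two {G : Type*} [Group G] {x : ℕ → K → G} {g : G} {r s : ℕ} {a : K}
    (h1 : ∀ t, g * x r t * g⁻¹ = x r (a * t)) (h2 : ∀ t, g * x s t * g⁻¹ = x s (φ a * t)) (t : K) :
    g * (x r t * x s (φ t)) * g⁻¹ = x r (a * t) * x s (φ (a * t)) := by
  rw [map_mul, ← h1, ← h2]
  group

theorem add_two {G : Type*} [Group G] {D : ChevalleyDatum} {x : ℕ → K → G} (h : IsSt0 D x) {r s : ℕ}
    (hr : r < D.nroots) (hs : s < D.nroots) (hc : ∀ t u, Commute (x r t) (x s u)) (t u : K) :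
    x r t * x s (φ t) * (x r u * x s (φ u)) = x r (t + u) * x s (φ (t + u)) := by
  rw [map_add, ← h.add r hr, ← h.add s hs, (hc u _).symm.mul_mul_mul_comm]

theorem gen_tE6 [Fintype K] {q : ℕ} (h2 : 2 ≤ q) (hq : ∀ t, φ t = t ^ q) (hK : Fintype.card K = q ^ 2) :
    ∃ a ∈ (E6.tw S φ hφ).data.T, ∃ b ∈ (E6.tw S φ hφ).data.T, (E6.tw S φ hφ).data.T ≤ closure {a, b} := by
  obtain ⟨k, hk⟩ := IsCyclic.exists_generator (α := Kˣ)
  obtain ⟨Φ, -, hΦ, -⟩ := exists_F4_E6 (F := K)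
  let y : ℕ → K → chevE6.group K := fun r t => Φ (xC chevF4 K r t)
  have hy : IsSt chevF4 y := isSt_xC.map Φ
  have y1 : ∀ r s : ℕ, r < chevF4.nroots ∧ orbF4 r = [(s, 1)] → ∀ t, y r t = xC chevE6 K s t := fun r s h t => by
    simp [y, hΦ r h.1, foldX, h.2]
  have y2 : ∀ r s s' : ℕ, r < chevF4.nroots ∧ orbF4 r = [(s, 1), (s', 1)] →
      y r 1 = xC chevE6 K s 1 * xC chevE6 K s' (φ 1) := fun r s s' h => by
    simp [y, hΦ r h.1, foldX, h.2]
  let f : Kˣ →* Kˣ := Units.map φ.toMonoidHom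
  have hf : ∀ u, (f u : K) = φ u := fun _ => rfl
  let c : Fin 6 → Kˣ := ![1, 1, k, 1, f k, 1]
  let D := (E6.tw S φ hφ).data
  have ht : ∀ (r : ℕ) (v : Fin 6 → ℤ), r < chevE6.nroots ∧ (∀ i : Fin 6, chevE6.cartan i r = v i) → ∀ t,
      S.tor c * xC chevE6 K r t * (S.tor c)⁻¹ = xC chevE6 K r ((k ^ v 2 * f k ^ v 4 : Kˣ) * t) := fun r v hv t =>
    (S.tor_conj c (rootTableE6.lt_iff.1 hv.1) t).trans (by rw [E6.chi_eq r v hv.2]; simp [c])
  have hcT : S.tor c ∈ D.T := E6.tor_mem_T S φ hφ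
    ((E6.mem_fixT S φ hφ).2 ⟨(map_one φ).symm, (map_one φ).symm, rfl, (map_one φ).symm⟩)
  have hT : ∀ i : Fin chevF4.rank, y (chevF4.simple i) 1 ∈ D.T ∧ y (chevF4.neg (chevF4.simple i)) 1 ∈ D.T :=
    fun i : Fin 4 => by
    fin_cases i
    · exact ⟨E6.par_pos_mem S φ hφ (a := 3) ⟨1, y2 33 56 36 (by decide)⟩,
        E6.par_neg_mem S φ hφ (a := 3) ⟨1, y2 14 15 35 (by decide)⟩⟩
    · exact ⟨E6.par_pos_mem S φ hφ (a := 2) ⟨1, y2 27 42 37 (by decide)⟩,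
        E6.par_neg_mem S φ hφ (a := 2) ⟨1, y2 20 29 34 (by decide)⟩⟩
    · exact ⟨E6.par_pos_mem S φ hφ (a := 1) ⟨1, map_one φ, y1 25 39 (by decide) 1⟩,
        E6.par_neg_mem S φ hφ (a := 1) ⟨1, map_one φ, y1 22 32 (by decide) 1⟩⟩
    · exact ⟨E6.par_pos_mem S φ hφ (a := 0) ⟨1, map_one φ, y1 24 46 (by decide) 1⟩,
        E6.par_neg_mem S φ hφ (a := 0) ⟨1, map_one φ, y1 23 25 (by decide) 1⟩⟩
  refine ⟨y 47 1 * S.tor c, mul_mem (all_of_simple hy rootTableF4 hT (by decide)) hcT,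
    y 18 1 * nw chevF4 y ([2, 1, 0, 3] : List (Fin 4)),
    mul_mem (all_of_simple hy rootTableF4 hT (by decide)) (nw_mem_of_all hy rootTableF4 hT _), ?_⟩
  set L := closure {y 47 1 * S.tor c, y 18 1 * nw chevF4 y ([2, 1, 0, 3] : List (Fin 4))}
  obtain ⟨h0, hh⟩ := mem_of_mul_mem (K := L) (u := y 47 1) (h := S.tor c)
    (commute_of_conj (by simpa [y1 47 71 (by decide)] using ht 71 ![0, 1, 0, 0, 0, 0] (by decide +kernel) 1))
    (X_pow_char (hy.add _ (by decide)) 1) (tor_pow_card S c) (coprime_card K) (subset_closure (by simp))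
  have h1 := chk_sound (K := L) hy rootTableF4 (by decide) (subset_closure (by simp)) _
    (List.forall_mem_singleton.2 ⟨by decide, h0⟩) chkF4
  have h3 : ∀ t, φ t = t → y 25 t ∈ L := fun t ht1 => by
    have h6 := fill (S.st.add 39 (by decide)) hh (ht 39 ![0, -1, -1, 2, -1, 0] (by decide +kernel))
      (y1 25 39 (by decide) 1 ▸ (h1 (2 : Fin 4)).1) (t := t) ?_
    · exact (y1 25 39 (by decide) t).symm ▸ (by simpa using h6)
    · have h7 : (k ^ (-1 : ℤ) * f k ^ (-1 : ℤ) : Kˣ) = (k ^ (1 + q))⁻¹ :=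
        Units.ext (by simp [hf, hq, pow_add, mul_comm])
      refine (congrArg sp h7).ge ((sp_inv _).ge (mem_sp_norm h2 ?_ hk (hq t ▸ ht1)))
      obtain ⟨q, rfl⟩ := Nat.exists_eq_add_of_le' (Nat.one_le_of_lt h2)
      rw [hK, add_tsub_cancel_right]
      ring
  have h4 : ∀ r s : ℕ, (r < chevF4.nroots ∧ orbF4 r = [(s, 1)]) ∧ chevF4.isLong 25 = chevF4.isLong r →
      ∀ t, φ t = t → xC chevE6 K s t ∈ L := fun r s h t ht =>
    y1 r s h.1 t ▸ mem_of_isLong hy rootTableF4 (by simp) h1 (by decide) h.1.1 h.2 (h3 t ht)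
  have h5 : ∀ (r s s' : ℕ) (v v' : Fin 6 → ℤ), (r < chevF4.nroots ∧ orbF4 r = [(s, 1), (s', 1)]) ∧
      (s < chevE6.nroots ∧ s' < chevE6.nroots ∧ commMod chevE6 0 s s' = true) ∧
      (∀ i : Fin 6, chevE6.cartan i s = v i) ∧ (∀ i : Fin 6, chevE6.cartan i s' = v' i) ∧ v 4 = 0 ∧ v' 2 = 0 ∧
      v' 4 = v 2 ∧ (v 2 = 1 ∨ v 2 = -1 ∨ v 2 = 2 ∨ v 2 = -2) →
      ∀ t, xC chevE6 K s t * xC chevE6 K s' (φ t) ∈ L := fun r s s' v v' h t => by
    obtain ⟨a1, a2, a3, a4, a5, a6, a7, a8⟩ := h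
    refine fill' (add_two φ S.st.toIsSt0 a2.1 a2.2.1 (E6.comm S s s' a2)) hh (c := k ^ v 2) (conj_two φ ?_ ?_)
      (y2 r s s' a1 ▸ all_of_simple hy rootTableF4 h1 a1.1) one_ne_zero (mem_sp_zpow hk a8) t
    · simpa [a5] using ht s v ⟨a2.1, a3⟩
    · simpa [a6, a7, hf] using ht s' v' ⟨a2.2.1, a4⟩
  refine D.T_le (fun a u hu hf' => ?_) fun a u hu hf' => ?_
  · have h6 := (E6.fix_pos S φ hφ a u).1 ⟨(E6.tw S φ hφ).UJ_eq a ▸ hu, hf'⟩
    fin_cases a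
    · obtain ⟨t, ht1, rfl⟩ := h6
      exact h4 24 46 (by decide +kernel) t ht1
    · obtain ⟨t, ht1, rfl⟩ := h6
      exact h4 25 39 (by decide +kernel) t ht1
    · obtain ⟨t, rfl⟩ := h6
      exact h5 27 42 37 ![-1, 0, 2, -1, 0, 0] ![0, 0, 0, -1, 2, -1] (by decide +kernel) t
    · obtain ⟨t, rfl⟩ := h6
      exact h5 33 56 36 ![2, 0, -1, 0, 0, 0] ![0, 0, 0, 0, -1, 2] (by decide +kernel) t
  · have h6 := (E6.fix_neg S φ hφ a u).1 ⟨(E6.tw S φ hφ).VJ_eq a ▸ hu, hf'⟩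
    fin_cases a
    · obtain ⟨t, ht1, rfl⟩ := h6
      exact h4 23 25 (by decide +kernel) t ht1
    · obtain ⟨t, ht1, rfl⟩ := h6
      exact h4 22 32 (by decide +kernel) t ht1
    · obtain ⟨t, rfl⟩ := h6
      exact h5 20 29 34 ![1, 0, -2, 1, 0, 0] ![0, 0, 0, 1, -2, 1] (by decide +kernel) t
    · obtain ⟨t, rfl⟩ := h6
      exact h5 14 15 35 ![-2, 0, 1, 0, 0, 0] ![0, 0, 0, 0, 1, -2] (by decide +kernel) t

end E6

section F4

theorem trickP {F G : Type*} [Field F] [Finite F] [Group G] {L : Subgroup G} {P : F → G → Prop}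
    (hm : ∀ {s s' g g'}, P s g → P s' g' → P (s + s') (g * g')) (hi : ∀ {s g}, P s g → P (-s) g⁻¹) {h n y : G}
    (hy : P 1 y) (hh : h ∈ L) (hb : y * n ∈ L) {c c' : Fˣ} (hc : ∀ {s g}, P s g → P (c * s) (h * g * h⁻¹))
    (hc' : ∀ {s g}, P s g → P (c' * s) (n * h * n⁻¹ * g * (n * h * n⁻¹)⁻¹))
    (hcomm : h * (n * h * n⁻¹) = n * h * n⁻¹ * h) (h1 : c ≠ 1) (h1' : c' ≠ 1) (hs : ∀ t, t ∈ sp c) (t : F) :
    ∃ g ∈ L, P t g := by
  have h2 := mul_mem (mul_mem hb hh) (inv_mem hb)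
  have h3 := mul_mem (mul_mem (mul_mem hh h2) (inv_mem hh)) (inv_mem h2)
  have e : h * (y * n * h * (y * n)⁻¹) * h⁻¹ * (y * n * h * (y * n)⁻¹)⁻¹ =
      (h * y * h⁻¹) * (n * h * n⁻¹ * ((h * y * h⁻¹)⁻¹ * y) * (n * h * n⁻¹)⁻¹) * y⁻¹ := by
    have : h * (y * n * h * (y * n)⁻¹) * h⁻¹ = (h * y * h⁻¹) * (h * (n * h * n⁻¹) * h⁻¹) * (h * y * h⁻¹)⁻¹ := by
      group
    rw [this, hcomm]
    group
  have h4 := hm (hm (hc hy) (hc' (hm (hi (hc hy)) hy))) (hi hy)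
  rw [← e, show (c : F) * 1 + c' * (-(c * 1) + 1) + -1 = (c - 1) * (1 - c') by ring] at h4
  have h5 : ((c : F) - 1) * (1 - c') ≠ 0 :=
    mul_ne_zero (sub_ne_zero.2 (by simpa using h1)) (sub_ne_zero.2 (by simpa [eq_comm] using h1'))
  generalize ((c : F) - 1) * (1 - c') = t₀ at h4 h5
  let A : AddSubgroup F :=
    { carrier := {s | ∃ g ∈ L, P (s * t₀) g}
      zero_mem' := ⟨_, mul_mem h3 (inv_mem h3), by simpa using hm h4 (hi h4)⟩
      add_mem' := fun ⟨g, a, b⟩ ⟨g', a', b'⟩ => ⟨_, mul_mem a a', add_mul _ _ t₀ ▸ hm b b'⟩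
      neg_mem' := fun ⟨g, a, b⟩ => ⟨_, inv_mem a, neg_mul _ t₀ ▸ hi b⟩ }
  simpa [A, h5] using sp_le (S := A) ⟨_, h3, by simpa using h4⟩
    (fun s ⟨g, a, b⟩ => ⟨_, mul_mem (mul_mem hh a) (inv_mem hh), mul_assoc (c : F) s t₀ ▸ hc b⟩) (hs (t * t₀⁻¹))

variable {K : Type*} [Field K] [CharP K 2] {G : Type*} [Group G] {x : ℕ → K → G} (S : ChevSys rootTableF4 x)
  (θ : K →+* K) (hθ : ∀ t, θ (θ t) ^ 2 = t)

/-- The fixed points in the `B₂` orbit. -/
def Y (x : ℕ → K → G) (θ : K →+* K) (s w : K) : G := word x ([27, 25, 28, 30].zip [θ s, s, θ s * s + θ w, w])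

include S hθ in
theorem Y_mul (s w s' w' : K) : Y x θ s w * Y x θ s' w' = Y x θ (s + s') (w + w' + s * θ s' ^ 2) := by
  have c1 := S.commute_of_check (p := 2) (by simpa using CharTwo.two_eq_zero) (r := 28) (s := 27) (by decide)
    (by decide) (by decide +kernel)
  have c2 := F4.comm S 28 25 (by decide +kernel)
  have c3 := F4.comm S 30 27 (by decide +kernel)
  have c4 := F4.comm S 30 25 (by decide +kernel)
  have c5 := F4.comm S 28 30 (by decide +kernel)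
  have key : ∀ a b c d a' b' c' d', x 27 a * x 25 b * (x 28 c * x 30 d) * (x 27 a' * x 25 b' * (x 28 c' * x 30 d')) =
      x 27 (a + a') * x 25 (b + b') * (x 28 (a' * b + c + c') * x 30 (a' ^ 2 * b + d + d')) := by
    intro a b c d a' b' c' d'
    have hZ : ∀ c d c' d', x 28 (c + c') * x 30 (d + d') = x 28 c * x 30 d * (x 28 c' * x 30 d') :=
      fun c d c' d' => by rw [(c5 c' d).symm.mul_mul_mul_comm, S.st.add 28 (by decide), S.st.add 30 (by decide)]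
    have e2 := ((c2 (a' * b) b').mul_left (c4 (a' ^ 2 * b) b')).eq
    rw [(((c1 c a').mul_right (c2 c b')).mul_left ((c3 d a').mul_right (c4 d b'))).mul_mul_mul_comm,
      add_assoc, add_assoc, hZ (a' * b), hZ c, ← S.st.add 27 (by decide), ← S.st.add 25 (by decide),
      ← mul_assoc _ (x 27 a'), mul_assoc (x 27 a), F4.comm_B2 S 27 25 28 30 (-1) (-1) (by decide +kernel),
      ← mul_assoc (x 27 a), mul_assoc _ _ (x 25 b'), e2]
    simp only [mul_assoc]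
  simp only [Y, List.zip_cons_cons, List.zip_nil_right, word_cons, word_nil, mul_one, ← mul_assoc (x 27 _)]
  rw [key, ← map_add]
  congr 3
  · simp only [map_add, map_mul, map_pow, hθ]
    linear_combination (-(θ s * s')) * CharTwo.two_eq_zero (R := K)
  · ring

omit [CharP K 2] in
theorem conj_Y {g : G} {a b : K} (h1 : ∀ t, g * x 27 t * g⁻¹ = x 27 (θ a * t))
    (h2 : ∀ t, g * x 25 t * g⁻¹ = x 25 (a * t)) (h3 : ∀ t, g * x 28 t * g⁻¹ = x 28 (θ a * a * t))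
    (h4 : ∀ t, g * x 30 t * g⁻¹ = x 30 (b * t)) (hb : θ b = θ a * a) (s w : K) :
    g * Y x θ s w * g⁻¹ = Y x θ (a * s) (b * w) := by
  simp only [Y, List.zip_cons_cons, List.zip_nil_right, word_cons, word_nil, mul_one, map_mul]
  rw [show θ a * θ s * (a * s) + θ b * θ w = θ a * a * (θ s * s + θ w) by rw [hb]; ring, ← h1, ← h2, ← h3, ← h4]
  group

theorem gen_tF4 [Fintype K] (hK : 2 < Fintype.card K) :
    ∃ a ∈ (F4.tw S θ hθ).data.T, ∃ b ∈ (F4.tw S θ hθ).data.T, (F4.tw S θ hθ).data.T ≤ closure {a, b} := by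
  obtain ⟨k, hk⟩ := IsCyclic.exists_generator (α := Kˣ)
  have hk1 : k ≠ 1 := fun e => by
    obtain ⟨c, hc⟩ := exists_units_ne_one hK
    obtain ⟨j, rfl⟩ := hk c
    exact hc (by simp [e])
  let f : Kˣ →* Kˣ := Units.map θ.toMonoidHom
  have hf : ∀ u, (f u : K) = θ u := fun _ => rfl
  let c : Fin 4 → Kˣ := ![(f k)⁻¹, 1, 1, k⁻¹]
  let X : K → G := fun t => x 24 t * x 33 (θ t)
  let D := (F4.tw S θ hθ).data
  let n : S.R.N := D.nJ 1 * D.nJ 0
  have hn : S.R.π n = rootTableF4.cs.wordProd ([1, 2, 1, 2, 0, 3] : List (Fin 4)) := by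
    rw [map_mul, D.π_nJ, D.π_nJ]
    exact (rootTableF4.cs.wordProd_append _ _).symm
  have hn2 := (map_pow _ _ _).trans ((congrArg (· ^ 2) hn).trans (wordProd_pow rootTableF4.cs _ 2))
  have hnT : (n : G) ∈ D.T := mul_mem (D.nJ_mem 1) (D.nJ_mem 0)
  have hp : ∀ (a : Fin 2) u, F4.par x θ 24 33 [27, 25, 28, 30] a u → u ∈ D.T := fun a u h =>
    D.mem_T_of_UJ (a := a) ((F4.tw S θ hθ).UJ_eq a ▸ ((F4.fix_pos S θ hθ a u).2 h).1) ((F4.fix_pos S θ hθ a u).2 h).2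
  have hX : ∀ t u, X t * X u = X (t + u) :=
    add_two θ S.st.toIsSt0 (by decide) (by decide) (F4.comm S 24 33 (by decide +kernel))
  have ht : ∀ (r : ℕ) (v : Fin 4 → ℤ), r < chevF4.nroots ∧ (∀ i : Fin 4, chevF4.cartan i r = v i) → ∀ t,
      S.tor c * x r t * (S.tor c)⁻¹ = x r ((f k ^ (-v 0) * k ^ (-v 3) : Kˣ) * t) := fun r v hv t =>
    (S.tor_conj c (rootTableF4.lt_iff.1 hv.1) t).trans (by rw [F4.chi_eq r v hv.2]; simp [c])
  have ht' : ∀ (r s : ℕ) (v : Fin 4 → ℤ), (s < chevF4.nroots ∧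
      act chevF4 ([1, 2, 1, 2, 0, 3] : List (Fin 4)) s = r) ∧ (∀ i : Fin 4, chevF4.cartan i s = v i) → ∀ t,
      n * S.tor c * (n : G)⁻¹ * x r t * (n * S.tor c * (n : G)⁻¹)⁻¹ = x r ((f k ^ (-v 0) * k ^ (-v 3) : Kˣ) * t) :=
    fun r s v hv t => (conj_tor_word S n hn hv.1 c t).trans (by rw [F4.chi_eq s v hv.2]; simp [c])
  have hcT : S.tor c ∈ D.T := F4.tor_mem_T S θ hθ ((F4.mem_fixT S θ hθ).2 ⟨by simp [c, hf], (map_one θ).symm⟩)
  obtain ⟨a₁, -, e₁⟩ := conj_x_word S (n ^ 2) hn2 (r := 2) (s := 24) (by decide +kernel)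
  obtain ⟨a₂, -, e₂⟩ := conj_x_word S (n ^ 2) hn2 (r := 8) (s := 33) (by decide +kernel)
  let u : G := (n ^ 2 : S.R.N) * X 1 * ((n ^ 2 : S.R.N) : G)⁻¹
  have hu : u = x 2 (a₁ * 1) * x 8 (a₂ * θ 1) := by
    rw [← e₁, ← e₂]
    simp only [u, X]
    group
  refine ⟨u * S.tor c, mul_mem (mul_mem (mul_mem (pow_mem hnT 2) (hp 0 _ ⟨1, rfl⟩)) (inv_mem (pow_mem hnT 2))) hcT,
    Y x θ 1 0 * n, mul_mem (hp 1 _ ⟨1, 0, rfl⟩) hnT, ?_⟩
  set L := closure {u * S.tor c, Y x θ 1 0 * n}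
  have hb : Y x θ 1 0 * n ∈ L := subset_closure (by simp)
  obtain ⟨h0, hh⟩ := mem_of_mul_mem (K := L) (u := u) (h := S.tor c)
    (hu ▸ (commute_of_conj (by simpa using ht 2 ![0, -2, 1, 0] (by decide +kernel) _)).mul_left
      (commute_of_conj (by simpa using ht 8 ![0, 1, -1, 0] (by decide +kernel) _)))
    (by rw [conj_pow, X_pow_char hX, mul_one, mul_inv_cancel]) (tor_pow_card S c) (coprime_card K)
    (subset_closure (by simp))
  have hb' : θ (θ k ^ 2 * k) = θ k * k := by rw [map_mul, map_pow, hθ, mul_comm]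
  have h3 : ∀ s, ∃ g ∈ L, ∃ w, g = Y x θ s w := by
    refine trickP (P := fun s g => ∃ w, g = Y x θ s w) ?_ ?_ ⟨0, rfl⟩ hh hb (c := k) (c' := k) ?_ ?_
      (S.H_comm (S.tor_mem c) (S.R.conj_mem_H n (S.tor_mem c))) hk1 hk1
      (by simpa using mem_sp_zpow hk (.inl rfl))
    · rintro s s' _ _ ⟨w, rfl⟩ ⟨w', rfl⟩
      exact ⟨_, Y_mul S θ hθ ..⟩
    · rintro s _ ⟨w, rfl⟩
      refine ⟨w + s * θ s ^ 2, inv_eq_of_mul_eq_one_right ?_⟩
      rw [Y_mul S θ hθ, add_neg_cancel, CharTwo.neg_eq, ← add_assoc, add_assoc, CharTwo.add_self_eq_zero,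
        CharTwo.add_self_eq_zero]
      simp [Y, S.st.x_zero (r := 27) (by decide), S.st.x_zero (r := 25) (by decide),
        S.st.x_zero (r := 28) (by decide), S.st.x_zero (r := 30) (by decide)]
    · rintro s _ ⟨w, rfl⟩
      refine ⟨_, conj_Y θ ?_ ?_ ?_ ?_ hb' s w⟩
      · simpa [hf] using ht 27 ![-1, 2, -1, 0] (by decide +kernel)
      · simpa [hf] using ht 25 ![0, -2, 2, -1] (by decide +kernel)
      · simpa [hf] using ht 28 ![-1, 0, 1, -1] (by decide +kernel)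
      · simpa [hf, zpow_ofNat] using ht 30 ![-2, 2, 0, -1] (by decide +kernel)
    · rintro s _ ⟨w, rfl⟩
      refine ⟨_, conj_Y θ ?_ ?_ ?_ ?_ hb' s w⟩
      · simpa [hf] using ht' 27 13 ![-1, -1, 1, 0] (by decide +kernel)
      · simpa [hf] using ht' 25 21 ![0, 2, -1, -1] (by decide +kernel)
      · simpa [hf] using ht' 28 11 ![-1, 1, 0, -1] (by decide +kernel)
      · simpa [hf, zpow_ofNat] using ht' 30 5 ![-2, 0, 1, -1] (by decide +kernel)
  have h4 : ∀ w, Y x θ 0 w ∈ L := fun w => by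
    obtain ⟨_, h, w', rfl⟩ := h3 (θ w ^ 2 / w)
    have := mul_mem h h
    rw [Y_mul S θ hθ, CharTwo.add_self_eq_zero, CharTwo.add_self_eq_zero, zero_add, map_div₀, map_pow, hθ] at this
    convert this using 2
    by_cases hw : w = 0
    · simp [hw]
    · have : θ w ≠ 0 := by simpa using hw
      field_simp
  have h5 : ∀ s w, Y x θ s w ∈ L := fun s w => by
    obtain ⟨_, h, w', rfl⟩ := h3 s
    simpa [Y_mul S θ hθ] using mul_mem h (h4 (w - w'))
  have hnL : (n : G) ∈ L := (L.mul_mem_cancel_left (h5 1 0)).1 hb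
  have h6 : ∀ t, X t ∈ L := by
    refine fill' hX hh (c := k ^ (-2 : ℤ)) (conj_two θ ?_ ?_) (t₀ := 1) ?_ one_ne_zero (mem_sp_zpow hk (by simp))
    · simpa using ht 24 ![0, 0, -1, 2] (by decide +kernel)
    · simpa [hf] using ht 33 ![2, -1, 0, 0] (by decide +kernel)
    · exact (L.mul_mem_cancel_left (pow_mem hnL 2)).1 ((L.mul_mem_cancel_right (inv_mem (pow_mem hnL 2))).1 h0)
  refine T_le_of_neg D (n ^ 4) (pow_mem hnL 4) (pow_mem hnT 4) (fun v => ?_) fun a u hu hf' => ?_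
  · rw [(map_pow _ _ _).trans ((congrArg (· ^ 4) hn).trans (wordProd_pow rootTableF4.cs _ 4))]
    exact geomRep_neg rootTableF4.cs rootTableF4.isCartan cm_F4 length_cartanF4 _ (by decide +kernel) v
  · have h7 := (F4.fix_pos S θ hθ a u).1 ⟨(F4.tw S θ hθ).UJ_eq a ▸ hu, hf'⟩
    fin_cases a
    · obtain ⟨t, rfl⟩ := h7
      exact h6 t
    · obtain ⟨s, w, rfl⟩ := h7
      exact h5 s w

end F4

end Cfsg.Agent.TwoGen
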